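import Mathlib
import Cfsg.Agent.Lib.Helper33.SylIn
import Cfsg.Agent.Lib.Helper1.CoprimeAbelian

/-!
# B-G Theorem 3.6, package P1 (orbit/parity lemma), part 1

The context structure `Ctx`, the fixed point subgroups `CV V B = C_V(B)`, the set `MM V A` of
subgroups of `A` maximal subject to `C_V(B) ≠ 1`, their independence, and the norm map
`v ↦ ∏_{i<r} a^i v a^{-i}` along a non-trivial `a`-orbit.
-/

set_option autoImplicit false
set_option linter.unusedSectionVars false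
set_option linter.style.haveILetI false

namespace Cfsg.Agent.Lib.Helper33.BG36W

open Cfsg.Agent.Lib.Helper33

universe u

section NoFinite

variable {X : Type u} [Group X]

theorem nconj {g : X} {H : Subgroup X} (hg : g ∈ Subgroup.normalizer (H : Set X)) {x : X}
    (hx : x ∈ H) : g * x * g⁻¹ ∈ H := (Subgroup.mem_normalizer_iff.1 hg x).1 hx

theorem nconj' {g : X} {H : Subgroup X} (hg : g ∈ Subgroup.normalizer (H : Set X)) {x : X}
    (hx : x ∈ H) : g⁻¹ * x * g ∈ H := (Subgroup.mem_normalizer_iff''.1 hg x).1 hx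

theorem pow_conj_mem {a : X} {V : Subgroup X} (ha : a ∈ Subgroup.normalizer (V : Set X)) {v : X}
    (hv : v ∈ V) (i : ℕ) : a ^ i * v * a⁻¹ ^ i ∈ V := by
  rw [inv_pow]
  exact nconj (Subgroup.pow_mem _ ha i) hv

/-- `C_V(B)`. -/
def CV (V B : Subgroup X) : Subgroup X := V ⊓ Subgroup.centralizer (B : Set X)

theorem mem_CV {V B : Subgroup X} {v : X} : v ∈ CV V B ↔ v ∈ V ∧ ∀ b ∈ B, b * v = v * b := by
  unfold CV
  rw [Subgroup.mem_inf, Subgroup.mem_centralizer_iff]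
  rfl

theorem CV_le (V B : Subgroup X) : CV V B ≤ V := inf_le_left

theorem cj_CV {g : X} {V : Subgroup X} (hg : cj g V = V) (B : Subgroup X) :
    cj g (CV V B) = CV V (cj g B) := by
  unfold CV
  rw [cj_inf, cj_centralizer, hg]

theorem cj_eq_bot {g : X} {H : Subgroup X} : cj g H = ⊥ ↔ H = ⊥ :=
  Subgroup.map_eq_bot_iff_of_injective H (MulAut.conj g).injective

theorem mem_centralizer_sup {v : X} {B B' : Subgroup X} (h1 : ∀ b ∈ B, b * v = v * b)
    (h2 : ∀ b ∈ B', b * v = v * b) : ∀ b ∈ B ⊔ B', b * v = v * b := by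
  have : B ⊔ B' ≤ Subgroup.centralizer ({v} : Set X) := by
    refine sup_le (fun b hb => ?_) (fun b hb => ?_)
    · rw [Subgroup.mem_centralizer_iff]
      rintro _ rfl
      exact (h1 b hb).symm
    · rw [Subgroup.mem_centralizer_iff]
      rintro _ rfl
      exact (h2 b hb).symm
  intro b hb
  exact (Subgroup.mem_centralizer_iff.1 (this hb) v rfl).symm

theorem cj_eq_of_abelian {A B : Subgroup X} (hAc : ∀ x ∈ A, ∀ y ∈ A, x * y = y * x) (hB : B ≤ A)
    {x : X} (hx : x ∈ A) : cj x B = B := by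
  apply le_antisymm
  · intro y hy
    rw [mem_cj] at hy
    have hyA : y ∈ A := by
      have := A.mul_mem (A.mul_mem hx (hB hy)) (A.inv_mem hx)
      have e : x * (x⁻¹ * y * x) * x⁻¹ = y := by group
      rwa [e] at this
    have : x⁻¹ * y * x = y := by rw [mul_assoc, hAc y hyA x hx, inv_mul_cancel_left]
    rwa [this] at hy
  · intro y hy
    rw [mem_cj]
    have : x⁻¹ * y * x = y := by rw [mul_assoc, hAc y (hB hy) x hx, inv_mul_cancel_left]
    rw [this]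
    exact hy

/-- The set of subgroups of `A` maximal subject to `C_V(B) ≠ 1`. -/
def MM (V A : Subgroup X) : Set (Subgroup X) :=
  {B | B ≤ A ∧ CV V B ≠ ⊥ ∧ ∀ B' : Subgroup X, B ≤ B' → B' ≤ A → CV V B' ≠ ⊥ → B' = B}

theorem cj_mem_MM {V A B : Subgroup X} {g : X} (hgV : g ∈ Subgroup.normalizer (V : Set X))
    (hgA : g ∈ Subgroup.normalizer (A : Set X)) (hB : B ∈ MM V A) : cj g B ∈ MM V A := by
  have hV : cj g V = V := mem_normalizer_iff_cj.1 hgV
  have hA : cj g A = A := mem_normalizer_iff_cj.1 hgA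
  have hV' : cj g⁻¹ V = V := by
    have := cj_inv_cj g V
    rwa [hV] at this
  have hA' : cj g⁻¹ A = A := by
    have := cj_inv_cj g A
    rwa [hA] at this
  refine ⟨?_, ?_, ?_⟩
  · have := cj_mono (g := g) hB.1
    rwa [hA] at this
  · rw [← cj_CV hV, Ne, cj_eq_bot]
    exact hB.2.1
  · intro B' h1 h2 h3
    have h4 : B ≤ cj g⁻¹ B' := cj_le_iff.1 h1
    have h5 : cj g⁻¹ B' ≤ A := by
      have := cj_mono (g := g⁻¹) h2
      rwa [hA'] at this
    have h6 : CV V (cj g⁻¹ B') ≠ ⊥ := by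
      rw [← cj_CV hV', Ne, cj_eq_bot]
      exact h3
    have h7 := hB.2.2 _ h4 h5 h6
    rw [← h7, cj_cj_inv]

/-- partial norm `∏_{i<k} a^i v a^{-i}` -/
def Np (a : X) : ℕ → X → X
  | 0, _ => 1
  | (k + 1), v => Np a k v * (a ^ k * v * a⁻¹ ^ k)

theorem Np_zero (a v : X) : Np a 0 v = 1 := rfl

theorem Np_succ (a : X) (k : ℕ) (v : X) : Np a (k + 1) v = Np a k v * (a ^ k * v * a⁻¹ ^ k) := rfl

theorem Np_mem {a : X} {K : Subgroup X} {v : X} :
    ∀ k : ℕ, (∀ i < k, a ^ i * v * a⁻¹ ^ i ∈ K) → Np a k v ∈ K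
  | 0, _ => K.one_mem
  | (k + 1), h => K.mul_mem (Np_mem k (fun i hi => h i (by omega))) (h k (by omega))

theorem Np_mem' {a : X} {K : Subgroup X} {v : X} :
    ∀ k : ℕ, (∀ i, 0 < i → i ≤ k → a ^ i * v * a⁻¹ ^ i ∈ K) → v⁻¹ * Np a (k + 1) v ∈ K
  | 0, _ => by simp [Np]
  | (k + 1), h => by
      have h1 := Np_mem' k (fun i hi hik => h i hi (by omega))
      have h2 := h (k + 1) (by omega) le_rfl
      have : v⁻¹ * Np a (k + 1 + 1) v
          = (v⁻¹ * Np a (k + 1) v) * (a ^ (k + 1) * v * a⁻¹ ^ (k + 1)) := by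
        rw [Np_succ a (k + 1)]
        simp only [mul_assoc]
      rw [this]
      exact K.mul_mem h1 h2

theorem conj_Np (a v : X) : ∀ k : ℕ, a * Np a k v * a⁻¹ = v⁻¹ * Np a (k + 1) v
  | 0 => by simp [Np]
  | (k + 1) => by
      have ih := conj_Np a v k
      calc a * Np a (k + 1) v * a⁻¹
          = (a * Np a k v * a⁻¹) * (a * (a ^ k * v * a⁻¹ ^ k) * a⁻¹) := by
            rw [Np_succ a k]; group
        _ = (v⁻¹ * Np a (k + 1) v) * (a ^ (k + 1) * v * a⁻¹ ^ (k + 1)) := by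
            rw [ih, pow_succ' a k, pow_succ a⁻¹ k]; simp only [mul_assoc]
        _ = v⁻¹ * Np a (k + 1 + 1) v := by
            rw [Np_succ a (k + 1)]; simp only [mul_assoc]

theorem Np_mul {a : X} {V : Subgroup X} (ha : a ∈ Subgroup.normalizer (V : Set X))
    (hVc : ∀ v ∈ V, ∀ w ∈ V, v * w = w * v) {v w : X} (hv : v ∈ V) (hw : w ∈ V) :
    ∀ k : ℕ, Np a k (v * w) = Np a k v * Np a k w
  | 0 => by simp [Np]
  | (k + 1) => by
      rw [Np_succ, Np_succ, Np_succ, Np_mul ha hVc hv hw k]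
      have h1 : a ^ k * (v * w) * a⁻¹ ^ k = (a ^ k * v * a⁻¹ ^ k) * (a ^ k * w * a⁻¹ ^ k) := by
        rw [inv_pow]; group
      rw [h1]
      have h2 := hVc _ (Np_mem k (fun i _ => pow_conj_mem ha hw i)) _ (pow_conj_mem ha hv k)
      calc Np a k v * Np a k w * (a ^ k * v * a⁻¹ ^ k * (a ^ k * w * a⁻¹ ^ k))
          = Np a k v * (Np a k w * (a ^ k * v * a⁻¹ ^ k)) * (a ^ k * w * a⁻¹ ^ k) := by
            simp only [mul_assoc]
        _ = Np a k v * ((a ^ k * v * a⁻¹ ^ k) * Np a k w) * (a ^ k * w * a⁻¹ ^ k) := by rw [h2]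
        _ = Np a k v * (a ^ k * v * a⁻¹ ^ k) * (Np a k w * (a ^ k * w * a⁻¹ ^ k)) := by
            simp only [mul_assoc]

theorem Np_comm {a : X} {V : Subgroup X} (ha : a ∈ Subgroup.normalizer (V : Set X))
    (hVc : ∀ v ∈ V, ∀ w ∈ V, v * w = w * v) {r : ℕ} (har : a ^ r = 1) {v : X} (hv : v ∈ V) :
    a * Np a r v = Np a r v * a := by
  have h1 := conj_Np a v r
  rw [Np_succ, har, inv_pow, har, inv_one, one_mul, mul_one] at h1
  have h2 := hVc _ (Np_mem r (fun i _ => pow_conj_mem ha hv i)) v hv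
  rw [h2, inv_mul_cancel_left] at h1
  calc a * Np a r v = (a * Np a r v * a⁻¹) * a := by group
    _ = Np a r v * a := by rw [h1]

theorem cj_pow_ne {a : X} {r : ℕ} (hr : r.Prime) (har : a ^ r = 1) {B : Subgroup X}
    (hBa : cj a B ≠ B) {i : ℕ} (hi : ¬ r ∣ i) : cj (a ^ i) B ≠ B := by
  intro h1
  apply hBa
  have hcop : Nat.Coprime i r := ((Nat.Prime.coprime_iff_not_dvd hr).2 hi).symm
  have h2 : a ^ i ∈ Subgroup.normalizer (B : Set X) := mem_normalizer_iff_cj.2 h1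
  have h3 : a ∈ Subgroup.normalizer (B : Set X) := by
    have e : (a ^ i) ^ (Nat.gcdA i r) * (a ^ r) ^ (Nat.gcdB i r) = a := by
      rw [← zpow_natCast a i, ← zpow_natCast a r, ← zpow_mul, ← zpow_mul, ← zpow_add,
        ← Nat.gcd_eq_gcd_ab, Nat.Coprime.gcd_eq_one hcop]
      simp
    rw [← e, har, one_zpow, mul_one]
    exact Subgroup.zpow_mem _ h2 _
  exact mem_normalizer_iff_cj.1 h3

theorem cj_pow_inj {a : X} {r : ℕ} (hr : r.Prime) (har : a ^ r = 1) {B : Subgroup X}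
    (hBa : cj a B ≠ B) {i j : ℕ} (hi : i < r) (hj : j < r)
    (hij : cj (a ^ i) B = cj (a ^ j) B) : i = j := by
  wlog hle : i ≤ j generalizing i j
  · exact (this hj hi hij.symm (by omega)).symm
  by_contra hne
  have h1 : cj (a ^ (j - i)) B = B := by
    have e : a ^ j = a ^ i * a ^ (j - i) := by
      rw [← pow_add]; congr 1; omega
    rw [e, cj_mul] at hij
    have := congrArg (cj (a ^ i)⁻¹) hij
    rw [cj_inv_cj, cj_inv_cj] at this
    exact this.symm
  exact cj_pow_ne hr har hBa (fun hd => by have := Nat.le_of_dvd (by omega) hd; omega) h1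

end NoFinite

variable {X : Type u} [Group X] [Finite X]

theorem exists_mem_MM {V A B₀ : Subgroup X} (hB₀ : B₀ ≤ A) (h : CV V B₀ ≠ ⊥) :
    ∃ B ∈ MM V A, B₀ ≤ B := by
  classical
  let S : Set (Subgroup X) := {B | B₀ ≤ B ∧ B ≤ A ∧ CV V B ≠ ⊥}
  have hS : S.Nonempty := ⟨B₀, le_rfl, hB₀, h⟩
  obtain ⟨B, hB, hmax⟩ := Set.exists_max_image S (fun B => Nat.card B) (Set.toFinite S) hS
  refine ⟨B, ⟨hB.2.1, hB.2.2, ?_⟩, hB.1⟩
  intro B' hBB' hB'A hB'
  have h1 := hmax B' ⟨hB.1.trans hBB', hB'A, hB'⟩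
  exact (eq_of_le_of_card_le hBB' h1).symm

/-- The hypotheses of the orbit/parity lemma. -/
structure Ctx (p r : ℕ) (V A T : Subgroup X) (a : X) : Prop where
  hp : p.Prime
  hr : r.Prime
  hp2 : p ≠ 2
  hr2 : r ≠ 2
  hpr : p ≠ r
  hVp : ∀ v ∈ V, v ^ p = 1
  hVc : ∀ v ∈ V, ∀ w ∈ V, v * w = w * v
  hAc : ∀ x ∈ A, ∀ y ∈ A, x * y = y * x
  hAp : (Nat.card A).Coprime p
  hAodd : Odd (Nat.card A)
  hT : IsPGroup p T
  hAV : A ≤ Subgroup.normalizer (V : Set X)
  hTV : T ≤ Subgroup.normalizer (V : Set X)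
  haV : a ∈ Subgroup.normalizer (V : Set X)
  hTA : T ≤ Subgroup.normalizer (A : Set X)
  haA : a ∈ Subgroup.normalizer (A : Set X)
  haT : a ∈ Subgroup.normalizer (T : Set X)
  har : a ^ r = 1
  hfpf : ∀ t ∈ T, a * t = t * a → t = 1
  hcyc : IsCyclic ↥(V ⊓ Subgroup.centralizer ({a} : Set X))

variable {p r : ℕ} {V A T : Subgroup X} {a : X}

theorem Ctx.sub (h : Ctx p r V A T a) {M : Subgroup X} (hM : M ≤ V)
    (hAM : A ≤ Subgroup.normalizer (M : Set X)) (hTM : T ≤ Subgroup.normalizer (M : Set X))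
    (haM : a ∈ Subgroup.normalizer (M : Set X)) : Ctx p r M A T a :=
  { hp := h.hp
    hr := h.hr
    hp2 := h.hp2
    hr2 := h.hr2
    hpr := h.hpr
    hVp := fun v hv => h.hVp v (hM hv)
    hVc := fun v hv w hw => h.hVc v (hM hv) w (hM hw)
    hAc := h.hAc
    hAp := h.hAp
    hAodd := h.hAodd
    hT := h.hT
    hAV := hAM
    hTV := hTM
    haV := haM
    hTA := h.hTA
    haA := h.haA
    haT := h.haT
    har := h.har
    hfpf := h.hfpf
    hcyc := by
      haveI := h.hcyc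
      exact isCyclic_of_injective (Subgroup.inclusion (inf_le_inf_right _ hM))
        (Subgroup.inclusion_injective _) }

theorem Ctx.card_pow (h : Ctx p r V A T a) {M : Subgroup X} (hM : M ≤ V) :
    ∃ k : ℕ, Nat.card M = p ^ k := by
  haveI : Fact p.Prime := ⟨h.hp⟩
  have : IsPGroup p ↥M := fun g => ⟨1, by
    apply Subtype.ext
    simpa using h.hVp g (hM g.2)⟩
  exact IsPGroup.iff_card.1 this

theorem Ctx.coprime (h : Ctx p r V A T a) {B M : Subgroup X} (hB : B ≤ A) (hM : M ≤ V) :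
    (Nat.card B).Coprime (Nat.card M) := by
  obtain ⟨k, hk⟩ := h.card_pow hM
  rw [hk]
  exact Nat.Coprime.pow_right k (Nat.Coprime.coprime_dvd_left (Subgroup.card_dvd_of_le hB) h.hAp)

theorem Ctx.le_card (h : Ctx p r V A T a) {M : Subgroup X} (hM : M ≤ V) (hne : M ≠ ⊥) :
    p ≤ Nat.card M := by
  obtain ⟨k, hk⟩ := h.card_pow hM
  rw [hk]
  have : k ≠ 0 := by
    rintro rfl
    rw [pow_zero] at hk
    exact hne (Subgroup.card_eq_one.1 hk)
  exact Nat.le_self_pow this p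

theorem indep (h : Ctx p r V A T a) {B : Subgroup X} (hB : B ≤ A) : CV V B ⊓ ⁅V, B⁆ = ⊥ := by
  haveI : IsMulCommutative V := ⟨⟨fun x y => Subtype.ext (h.hVc x x.2 y y.2)⟩⟩
  exact Cfsg.Agent.Lib.Helper1.abelian_centralizer_inf_commutator B V (hB.trans h.hAV)
    (h.coprime hB le_rfl)

theorem CV_le_comm (h : Ctx p r V A T a) {B B' : Subgroup X} (hB : B ∈ MM V A)
    (hB' : B' ∈ MM V A) (hne : B' ≠ B) : CV V B' ≤ ⁅V, B⁆ := by
  have hUV : CV V B' ≤ V := CV_le V B'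
  haveI : IsMulCommutative (CV V B') :=
    ⟨⟨fun x y => Subtype.ext (h.hVc x (hUV x.2) y (hUV y.2))⟩⟩
  have hBU : B ≤ Subgroup.normalizer ((CV V B' : Subgroup X) : Set X) := by
    rw [Subgroup.le_normalizer_iff]
    intro b hb u hu
    rw [mem_CV] at hu ⊢
    refine ⟨nconj (h.hAV (hB.1 hb)) hu.1, ?_⟩
    intro b' hb'
    have c1 : Commute b' b := (h.hAc b' (hB'.1 hb') b (hB.1 hb))
    have c2 : Commute b' u := hu.2 b' hb'
    exact ((c1.mul_right c2).mul_right c1.inv_right).eq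
  have hcop := h.coprime hB.1 hUV
  have h1 := Cfsg.Agent.Lib.Helper1.abelian_centralizer_sup_commutator B (CV V B') hBU hcop
  have h2 : CV V B' ⊓ Subgroup.centralizer (B : Set X) = ⊥ := by
    by_contra hne'
    have h3 : CV V (B ⊔ B') ≠ ⊥ := by
      intro h4
      apply hne'
      rw [eq_bot_iff]
      intro x hx
      rw [← h4, mem_CV]
      obtain ⟨hx1, hx2⟩ := Subgroup.mem_inf.1 hx
      rw [mem_CV] at hx1
      exact ⟨hx1.1, mem_centralizer_sup (Subgroup.mem_centralizer_iff.1 hx2) hx1.2⟩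
    have h5 := hB.2.2 (B ⊔ B') le_sup_left (sup_le hB.1 hB'.1) h3
    have h6 : B' ≤ B := by
      rw [← h5]
      exact le_sup_right
    exact hne (hB'.2.2 B h6 hB.1 hB.2.1).symm
  rw [h2, bot_sup_eq] at h1
  calc CV V B' = ⁅CV V B', B⁆ := h1.symm
    _ ≤ ⁅V, B⁆ := Subgroup.commutator_mono hUV le_rfl

theorem conj_pow_mem_CV (h : Ctx p r V A T a) {B : Subgroup X} {v : X} (hv : v ∈ CV V B)
    (i : ℕ) : a ^ i * v * a⁻¹ ^ i ∈ CV V (cj (a ^ i) B) := by
  have hV : cj (a ^ i) V = V := mem_normalizer_iff_cj.1 (Subgroup.pow_mem _ h.haV i)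
  rw [← cj_CV hV, inv_pow]
  exact conj_mem_cj hv

theorem pow_cj_mem_MM (h : Ctx p r V A T a) {B : Subgroup X} (hB : B ∈ MM V A) (i : ℕ) :
    cj (a ^ i) B ∈ MM V A :=
  cj_mem_MM (Subgroup.pow_mem _ h.haV i) (Subgroup.pow_mem _ h.haA i) hB

theorem inv_mul_Np_mem (h : Ctx p r V A T a) {B : Subgroup X} (hB : B ∈ MM V A)
    (hBa : cj a B ≠ B) {v : X} (hv : v ∈ CV V B) : v⁻¹ * Np a r v ∈ ⁅V, B⁆ := by
  have hr0 : 0 < r := h.hr.pos
  obtain ⟨k, rfl⟩ : ∃ k, r = k + 1 := ⟨r - 1, by omega⟩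
  apply Np_mem'
  intro i hi hik
  have h2 : cj (a ^ i) B ≠ B :=
    cj_pow_ne h.hr h.har hBa (fun hd => by have := Nat.le_of_dvd hi hd; omega)
  exact CV_le_comm h hB (pow_cj_mem_MM h hB i) h2 (conj_pow_mem_CV h hv i)

theorem norm_inj (h : Ctx p r V A T a) {B : Subgroup X} (hB : B ∈ MM V A) (hBa : cj a B ≠ B)
    {v : X} (hv : v ∈ CV V B) (hN : Np a r v = 1) : v = 1 := by
  have h1 := inv_mul_Np_mem h hB hBa hv
  rw [hN, mul_one] at h1
  have h4 : v ∈ CV V B ⊓ ⁅V, B⁆ := ⟨hv, by simpa using Subgroup.inv_mem _ h1⟩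
  rw [indep h hB.1] at h4
  exact Subgroup.mem_bot.1 h4

theorem Np_mem_Ca (h : Ctx p r V A T a) {v : X} (hv : v ∈ V) :
    Np a r v ∈ V ⊓ Subgroup.centralizer ({a} : Set X) := by
  refine Subgroup.mem_inf.2 ⟨Np_mem r (fun i _ => pow_conj_mem h.haV hv i), ?_⟩
  rw [Subgroup.mem_centralizer_iff]
  rintro _ rfl
  exact Np_comm h.haV h.hVc h.har hv

theorem card_Ca_le (h : Ctx p r V A T a) :
    Nat.card ↥(V ⊓ Subgroup.centralizer ({a} : Set X)) ≤ p := by
  haveI := h.hcyc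
  obtain ⟨g, hg⟩ := IsCyclic.exists_generator (α := ↥(V ⊓ Subgroup.centralizer ({a} : Set X)))
  have h1 : orderOf g = Nat.card ↥(V ⊓ Subgroup.centralizer ({a} : Set X)) :=
    orderOf_eq_card_of_forall_mem_zpowers hg
  have h2 : g ^ p = 1 := by
    apply Subtype.ext
    simpa using h.hVp g g.2.1
  rw [← h1]
  exact Nat.le_of_dvd h.hp.pos (orderOf_dvd_of_pow_eq_one h2)

theorem norm_bij (h : Ctx p r V A T a) {B : Subgroup X} (hB : B ∈ MM V A) (hBa : cj a B ≠ B) :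
    Nat.card (CV V B) = p ∧
      ∀ c ∈ V ⊓ Subgroup.centralizer ({a} : Set X), ∃ v ∈ CV V B, Np a r v = c := by
  let f : ↥(CV V B) → ↥(V ⊓ Subgroup.centralizer ({a} : Set X)) :=
    fun v => ⟨Np a r v, Np_mem_Ca h (CV_le V B v.2)⟩
  have hf : Function.Injective f := by
    intro v w hvw
    have e : Np a r (v : X) = Np a r (w : X) := congrArg Subtype.val hvw
    have hvV := CV_le V B v.2
    have hwV := CV_le V B w.2
    have e2 : Np a r ((v : X) * (w : X)⁻¹) = 1 := by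
      have := Np_mul h.haV h.hVc (V.mul_mem hvV (V.inv_mem hwV)) hwV r
      rw [inv_mul_cancel_right, e] at this
      exact right_eq_mul.1 this
    have e3 := norm_inj h hB hBa ((CV V B).mul_mem v.2 ((CV V B).inv_mem w.2)) e2
    exact Subtype.ext (mul_inv_eq_one.1 e3)
  have hc1 := Nat.card_le_card_of_injective f hf
  have hc2 := card_Ca_le h
  have hc3 := h.le_card (CV_le V B) hB.2.1
  have hbij := hf.bijective_of_nat_card_le (by omega)
  refine ⟨by omega, fun c hc => ?_⟩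
  obtain ⟨v, hv⟩ := hbij.2 ⟨c, hc⟩
  exact ⟨v, v.2, congrArg Subtype.val hv⟩

theorem same_orbit (h : Ctx p r V A T a) {B B' : Subgroup X} (hB : B ∈ MM V A)
    (hB' : B' ∈ MM V A) (hBa : cj a B ≠ B) (hBa' : cj a B' ≠ B') :
    ∃ i < r, B' = cj (a ^ i) B := by
  by_contra hcon
  push Not at hcon
  have h1 : ∀ j : ℕ, cj (a ^ j) B' ≠ B := by
    intro j hj
    have e1 : B' = cj (a ^ j)⁻¹ B := by rw [← hj, cj_inv_cj]
    have e2 : (a ^ j)⁻¹ = a ^ (((r - 1) * j) % r) := by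
      rw [← pow_eq_pow_mod _ h.har]
      apply inv_eq_of_mul_eq_one_right
      rw [← pow_add]
      have : j + (r - 1) * j = r * j := by
        have := h.hr.pos
        obtain ⟨k, rfl⟩ : ∃ k, r = k + 1 := ⟨r - 1, by omega⟩
        simp only [Nat.add_sub_cancel]
        ring
      rw [this, pow_mul, h.har, one_pow]
    exact hcon _ (Nat.mod_lt _ h.hr.pos) (by rw [e1, e2])
  obtain ⟨v, hv, hv1⟩ : ∃ v ∈ CV V B, v ≠ 1 := by
    by_contra hno
    push Not at hno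
    exact hB.2.1 ((Subgroup.eq_bot_iff_forall _).2 hno)
  have hvV := CV_le V B hv
  obtain ⟨-, hsurj⟩ := norm_bij h hB' hBa'
  obtain ⟨v', hv', he⟩ := hsurj _ (Np_mem_Ca h hvV)
  have h2 : Np a r v' ∈ ⁅V, B⁆ :=
    Np_mem r (fun i _ => CV_le_comm h hB (pow_cj_mem_MM h hB' i) (h1 i) (conj_pow_mem_CV h hv' i))
  have h3 := inv_mul_Np_mem h hB hBa hv
  rw [← he] at h3
  have h4 : v ∈ ⁅V, B⁆ := by
    have := Subgroup.mul_mem _ h2 (Subgroup.inv_mem _ h3)
    simpa using this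
  have h5 : v ∈ CV V B ⊓ ⁅V, B⁆ := ⟨hv, h4⟩
  rw [indep h hB.1] at h5
  exact hv1 (Subgroup.mem_bot.1 h5)

end Cfsg.Agent.Lib.Helper33.BG36W
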