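import Mathlib
import Cfsg.Agent.Lib.Helper33.BG36W1

/-!
# B-G Theorem 3.6, package P1 (orbit/parity lemma), part 2

Lang's map for a fixed-point-free element, and `T`-invariance of every member of `MM V A`.
-/

set_option autoImplicit false
set_option linter.unusedSectionVars false
set_option linter.style.haveILetI false

namespace Cfsg.Agent.Lib.Helper33.BG36W

open Cfsg.Agent.Lib.Helper33

universe u

variable {X : Type u} [Group X] [Finite X]
variable {p r : ℕ} {V A T : Subgroup X} {a : X}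

theorem lang_inj (h : Ctx p r V A T a) {s t : X} (hs : s ∈ T) (ht : t ∈ T)
    (e : s⁻¹ * a * s * a⁻¹ = t⁻¹ * a * t * a⁻¹) : s = t := by
  have h1 : a * (t * s⁻¹) = (t * s⁻¹) * a := by
    have e' : s⁻¹ * a * s = t⁻¹ * a * t := mul_right_cancel e
    calc a * (t * s⁻¹) = t * (t⁻¹ * a * t) * s⁻¹ := by group
      _ = t * (s⁻¹ * a * s) * s⁻¹ := by rw [e']
      _ = t * s⁻¹ * a := by group
  have h2 := h.hfpf _ (T.mul_mem ht (T.inv_mem hs)) h1
  exact (mul_inv_eq_one.1 h2).symm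

theorem lang_surj (h : Ctx p r V A T a) {S : Subgroup X} (hS : S ≤ T)
    (haS : a ∈ Subgroup.normalizer (S : Set X)) {c : X} (hc : c ∈ S) :
    ∃ s ∈ S, s⁻¹ * a * s * a⁻¹ = c := by
  let f : ↥S → ↥S := fun s => ⟨(s : X)⁻¹ * a * s * a⁻¹, by
    have := S.mul_mem (S.inv_mem s.2) (nconj haS s.2)
    simpa [mul_assoc] using this⟩
  have hf : Function.Injective f := fun s t e =>
    Subtype.ext (lang_inj h (hS s.2) (hS t.2) (congrArg Subtype.val e))
  obtain ⟨s, hs⟩ := (Finite.injective_iff_surjective.1 hf) ⟨c, hc⟩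
  exact ⟨s, s.2, congrArg Subtype.val hs⟩

theorem inv_of_conj_inv (h : Ctx p r V A T a) {B : Subgroup X} (hBa : cj a B = B) {t : X}
    (ht : t ∈ T) (hta : cj a (cj t B) = cj t B) : cj t B = B := by
  have haS : a ∈ Subgroup.normalizer ((T ⊓ Subgroup.normalizer (B : Set X) : Subgroup X) : Set X) := by
    rw [mem_normalizer_iff_cj, cj_inf, mem_normalizer_iff_cj.1 h.haT, cj_normalizer, hBa]
  have hBa' : cj a⁻¹ B = B := by
    have := cj_inv_cj a B
    rwa [hBa] at this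
  have hc : t⁻¹ * a * t * a⁻¹ ∈ T ⊓ Subgroup.normalizer (B : Set X) := by
    refine Subgroup.mem_inf.2 ⟨?_, ?_⟩
    · have := T.mul_mem (T.inv_mem ht) (nconj h.haT ht)
      simpa [mul_assoc] using this
    · rw [mem_normalizer_iff_cj, cj_mul, cj_mul, cj_mul, hBa', hta, cj_inv_cj]
  obtain ⟨s, hs, e⟩ := lang_surj h inf_le_left haS hc
  have := lang_inj h (Subgroup.mem_inf.1 hs).1 ht e
  rw [← this]
  exact mem_normalizer_iff_cj.1 (Subgroup.mem_inf.1 hs).2

/-- conjugation action of `T` on the subgroups of `X` -/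
@[reducible] def conjAct (T : Subgroup X) : MulAction ↥T (Subgroup X) where
  smul t B := cj (t : X) B
  one_smul B := cj_one B
  mul_smul s t B := cj_mul (s : X) (t : X) B

theorem T_inv_of_a_inv (h : Ctx p r V A T a) {B : Subgroup X} (hB : B ∈ MM V A)
    (hBa : cj a B = B) : ∀ t ∈ T, cj t B = B := by
  classical
  by_contra hcon
  push Not at hcon
  obtain ⟨t₀, ht₀, hne⟩ := hcon
  have hB₁M : cj t₀ B ∈ MM V A := cj_mem_MM (h.hTV ht₀) (h.hTA ht₀) hB
  have hB₁a : cj a (cj t₀ B) ≠ cj t₀ B := fun e => hne (inv_of_conj_inv h hBa ht₀ e)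
  letI := conjAct T
  haveI : Fact p.Prime := ⟨h.hp⟩
  obtain ⟨n, hn⟩ := h.hT.card_orbit B
  have horb : MulAction.orbit ↥T B
      = ↑(insert B ((Finset.range r).image (fun i => cj (a ^ i) (cj t₀ B)))) := by
    ext C
    rw [MulAction.mem_orbit_iff]
    simp only [Finset.coe_insert, Finset.coe_image, Finset.coe_range, Set.mem_insert_iff,
      Set.mem_image, Set.mem_Iio]
    constructor
    · rintro ⟨t, rfl⟩
      show cj (t : X) B = B ∨ _
      by_cases e : cj (t : X) B = B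
      · exact Or.inl e
      · right
        have h1 : cj a (cj (t : X) B) ≠ cj (t : X) B :=
          fun e' => e (inv_of_conj_inv h hBa t.2 e')
        obtain ⟨i, hi, e2⟩ :=
          same_orbit h hB₁M (cj_mem_MM (h.hTV t.2) (h.hTA t.2) hB) hB₁a h1
        exact ⟨i, hi, e2.symm⟩
    · rintro (rfl | ⟨i, hi, rfl⟩)
      · exact ⟨1, cj_one _⟩
      · have hai : cj (a ^ i) B = B :=
          mem_normalizer_iff_cj.1 (Subgroup.pow_mem _ (mem_normalizer_iff_cj.2 hBa) i)
        have hai' : cj (a ^ i)⁻¹ B = B := by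
          have := cj_inv_cj (a ^ i) B
          rwa [hai] at this
        refine ⟨⟨a ^ i * t₀ * (a ^ i)⁻¹, nconj (Subgroup.pow_mem _ h.haT i) ht₀⟩, ?_⟩
        show cj (a ^ i * t₀ * (a ^ i)⁻¹) B = cj (a ^ i) (cj t₀ B)
        rw [cj_mul, cj_mul, hai']
  have hcard : Nat.card (MulAction.orbit ↥T B) = r + 1 := by
    rw [horb, Nat.card_coe_set_eq, Set.ncard_coe_finset, Finset.card_insert_of_notMem,
      Finset.card_image_of_injOn, Finset.card_range]
    · intro i hi j hj e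
      exact cj_pow_inj h.hr h.har hB₁a (Finset.mem_range.1 (Finset.mem_coe.1 hi))
        (Finset.mem_range.1 (Finset.mem_coe.1 hj)) e
    · intro hmem
      obtain ⟨i, hi, e⟩ := Finset.mem_image.1 hmem
      have hai : cj (a ^ i) B = B :=
        mem_normalizer_iff_cj.1 (Subgroup.pow_mem _ (mem_normalizer_iff_cj.2 hBa) i)
      have e' : cj (a ^ i) (cj t₀ B) = cj (a ^ i) B := e.trans hai.symm
      have := congrArg (cj (a ^ i)⁻¹) e'
      rw [cj_inv_cj, cj_inv_cj] at this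
      exact hne this
  rw [hcard] at hn
  have h1 : Odd (p ^ n) := (h.hp.odd_of_ne_two h.hp2).pow
  rw [← hn] at h1
  have h2 : Even (r + 1) := (h.hr.odd_of_ne_two h.hr2).add_one
  exact (Nat.not_even_iff_odd.2 h1) h2

theorem T_inv_of_not_a_inv (h : Ctx p r V A T a) {B : Subgroup X} (hB : B ∈ MM V A)
    (hBa : cj a B ≠ B) : ∀ t ∈ T, cj t B = B := by
  classical
  let O : Finset (Subgroup X) := (Finset.range r).image (fun i => cj (a ^ i) B)
  have hOcard : O.card = r := by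
    rw [Finset.card_image_of_injOn, Finset.card_range]
    intro i hi j hj e
    exact cj_pow_inj h.hr h.har hBa (Finset.mem_range.1 (Finset.mem_coe.1 hi))
      (Finset.mem_range.1 (Finset.mem_coe.1 hj)) e
  have hOM : ∀ C ∈ O, C ∈ MM V A ∧ cj a C ≠ C := by
    intro C hC
    obtain ⟨i, hi, rfl⟩ := Finset.mem_image.1 hC
    refine ⟨pow_cj_mem_MM h hB i, ?_⟩
    intro e
    rw [← cj_mul, ← pow_succ', pow_succ, cj_mul] at e
    have := congrArg (cj (a ^ i)⁻¹) e
    rw [cj_inv_cj, cj_inv_cj] at this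
    exact hBa this
  have hOT : ∀ t ∈ T, ∀ C ∈ O, cj t C ∈ O := by
    intro t ht C hC
    obtain ⟨hCM, hCa⟩ := hOM C hC
    have h1 : cj t C ∈ MM V A := cj_mem_MM (h.hTV ht) (h.hTA ht) hCM
    have h2 : cj a (cj t C) ≠ cj t C := by
      intro e
      have h3 := T_inv_of_a_inv h h1 e t⁻¹ (T.inv_mem ht)
      rw [cj_inv_cj] at h3
      rw [← h3] at e
      exact hCa e
    obtain ⟨i, hi, e⟩ := same_orbit h hB h1 hBa h2
    exact Finset.mem_image.2 ⟨i, Finset.mem_range.2 hi, e.symm⟩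
  letI act : MulAction ↥T ↥O :=
    { smul := fun t C => ⟨cj (t : X) C.1, hOT t.1 t.2 C.1 C.2⟩
      one_smul := fun C => Subtype.ext (cj_one _)
      mul_smul := fun s t C => Subtype.ext (cj_mul _ _ _) }
  haveI : Fact p.Prime := ⟨h.hp⟩
  have hnd : ¬ p ∣ Nat.card ↥O := by
    rw [Nat.card_eq_fintype_card, Fintype.card_coe, hOcard]
    intro hd
    exact h.hpr ((Nat.prime_dvd_prime_iff_eq h.hp h.hr).1 hd)
  obtain ⟨C, hC⟩ := h.hT.nonempty_fixed_point_of_prime_not_dvd_card ↥O hnd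
  obtain ⟨i, hi, hCi⟩ := Finset.mem_image.1 C.2
  have hfix : ∀ t ∈ T, cj t (cj (a ^ i) B) = cj (a ^ i) B := by
    intro t ht
    have h1 := congrArg Subtype.val (MulAction.mem_fixedPoints.1 hC ⟨t, ht⟩)
    have h2 : cj t C.1 = C.1 := h1
    rw [hCi]
    exact h2
  intro t ht
  have h1 := hfix (a ^ i * t * (a ^ i)⁻¹) (nconj (Subgroup.pow_mem _ h.haT i) ht)
  rw [← cj_mul] at h1
  have e : a ^ i * t * (a ^ i)⁻¹ * a ^ i = a ^ i * t := by group
  rw [e, cj_mul] at h1
  have := congrArg (cj (a ^ i)⁻¹) h1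
  rwa [cj_inv_cj, cj_inv_cj] at this

theorem centralizes_of_card_eq (h : Ctx p r V A T a) {U : Subgroup X} (hU : Nat.card U = p)
    (hTU : T ≤ Subgroup.normalizer (U : Set X)) : ∀ t ∈ T, ∀ u ∈ U, t * u = u * t := by
  classical
  haveI : Fact p.Prime := ⟨h.hp⟩
  letI act : MulAction ↥T ↥U :=
    { smul := fun t u => ⟨(t : X) * u * (t : X)⁻¹, nconj (hTU t.2) u.2⟩
      one_smul := fun u => Subtype.ext (by
        show ((1 : ↥T) : X) * u * ((1 : ↥T) : X)⁻¹ = u
        simp)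
      mul_smul := fun s t u => Subtype.ext (by
        show ((s * t : ↥T) : X) * u * ((s * t : ↥T) : X)⁻¹ = (s : X) * ((t : X) * u * (t : X)⁻¹) * (s : X)⁻¹
        simp [mul_assoc]) }
  have h1 := h.hT.card_modEq_card_fixedPoints ↥U
  rw [hU] at h1
  have h2 : p ∣ Nat.card (MulAction.fixedPoints ↥T ↥U) := by
    have h3 : Nat.card (MulAction.fixedPoints ↥T ↥U) ≡ 0 [MOD p] :=
      h1.symm.trans (by simp [Nat.ModEq])
    exact (Nat.modEq_zero_iff_dvd.1 h3)
  have h3 : (1 : ↥U) ∈ MulAction.fixedPoints ↥T ↥U := by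
    intro t
    apply Subtype.ext
    show (t : X) * ((1 : ↥U) : X) * (t : X)⁻¹ = ((1 : ↥U) : X)
    simp
  have h4 : 0 < Nat.card (MulAction.fixedPoints ↥T ↥U) :=
    Nat.card_pos_iff.2 ⟨⟨⟨1, h3⟩⟩, inferInstance⟩
  have h5 : p ≤ Nat.card (MulAction.fixedPoints ↥T ↥U) := Nat.le_of_dvd h4 h2
  have h6 : MulAction.fixedPoints ↥T ↥U = Set.univ := by
    apply Set.eq_of_subset_of_ncard_le (Set.subset_univ _)
    rw [Set.ncard_univ, hU, ← Nat.card_coe_set_eq]
    exact h5
  intro t ht u hu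
  have h7 : (⟨u, hu⟩ : ↥U) ∈ MulAction.fixedPoints ↥T ↥U := by
    rw [h6]
    trivial
  have h8 := congrArg Subtype.val (h7 ⟨t, ht⟩)
  have h9 : t * u * t⁻¹ = u := h8
  calc t * u = (t * u * t⁻¹) * t := by group
    _ = u * t := by rw [h9]

end Cfsg.Agent.Lib.Helper33.BG36W
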