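import Mathlib
import Cfsg.Agent.Lib.Helper33.BG36W2
import Cfsg.Agent.S0016
import Cfsg.Agent.S0040
import Cfsg.Agent.Lib.Helper95.FrobCompl

/-!
# B-G Theorem 3.6, package P1 (orbit/parity lemma), part 3

The free case: if every element of `A` either centralizes `V` or acts fixed-point-freely, then
the image of `A` in `Aut(V)` is cyclic, so `T = [T, a]` acts trivially on it.
-/

set_option autoImplicit false
set_option linter.unusedSectionVars false
set_option linter.style.haveILetI false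

namespace Cfsg.Agent.Lib.Helper33.BG36W

open Cfsg.Agent.Lib.Helper33

universe u

/-- Two elements normalizing a cyclic subgroup have a commutator centralizing it. -/
theorem comm_centralizes_cyclic {Γ : Type*} [Group Γ] (C : Subgroup Γ) [IsCyclic ↥C] {g h : Γ}
    (hg : g ∈ Subgroup.normalizer (C : Set Γ)) (hh : h ∈ Subgroup.normalizer (C : Set Γ)) :
    ∀ c ∈ C, (g * h * g⁻¹ * h⁻¹) * c = c * (g * h * g⁻¹ * h⁻¹) := by
  obtain ⟨c₀, hc₀⟩ := IsCyclic.exists_generator (α := ↥C)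
  have key : ∀ u ∈ Subgroup.normalizer (C : Set Γ), ∃ k : ℤ, ∀ c ∈ C, u * c * u⁻¹ = c ^ k := by
    intro u hu
    have h1 : u * (c₀ : Γ) * u⁻¹ ∈ C := nconj hu c₀.2
    obtain ⟨k, hk⟩ := Subgroup.mem_zpowers_iff.1 (hc₀ ⟨_, h1⟩)
    refine ⟨k, fun c hc => ?_⟩
    obtain ⟨j, hj⟩ := Subgroup.mem_zpowers_iff.1 (hc₀ ⟨c, hc⟩)
    have e1 : (c₀ : Γ) ^ k = u * c₀ * u⁻¹ := by
      have := congrArg Subtype.val hk
      simpa using this
    have e2 : (c₀ : Γ) ^ j = c := by
      have := congrArg Subtype.val hj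
      simpa using this
    rw [← e2]
    calc u * (c₀ : Γ) ^ j * u⁻¹ = (u * c₀ * u⁻¹) ^ j := conj_zpow.symm
      _ = ((c₀ : Γ) ^ k) ^ j := by rw [e1]
      _ = ((c₀ : Γ) ^ j) ^ k := by rw [← zpow_mul, ← zpow_mul, mul_comm]
  obtain ⟨k₁, hk₁⟩ := key g⁻¹ (Subgroup.inv_mem _ hg)
  obtain ⟨k₂, hk₂⟩ := key h⁻¹ (Subgroup.inv_mem _ hh)
  simp only [inv_inv] at hk₁ hk₂
  intro c hc
  have e1 := hk₂ c hc
  have e2 := hk₁ (c ^ k₂) (C.zpow_mem hc k₂)
  have e3 := hk₂ (c ^ k₁) (C.zpow_mem hc k₁)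
  have e4 := hk₁ c hc
  have e5 : (c ^ k₂) ^ k₁ = (c ^ k₁) ^ k₂ := by rw [← zpow_mul, ← zpow_mul, mul_comm]
  have e6 : g * h * g⁻¹ * h⁻¹ * c * h * g * h⁻¹ * g⁻¹ = c := by
    calc g * h * g⁻¹ * h⁻¹ * c * h * g * h⁻¹ * g⁻¹
        = g * h * (g⁻¹ * (h⁻¹ * c * h) * g) * h⁻¹ * g⁻¹ := by group
      _ = g * h * ((c ^ k₁) ^ k₂) * h⁻¹ * g⁻¹ := by rw [e1, e2, e5]
      _ = g * (h * (h⁻¹ * c ^ k₁ * h) * h⁻¹) * g⁻¹ := by rw [e3]; group
      _ = g * (g⁻¹ * c * g) * g⁻¹ := by rw [e4]; group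
      _ = c := by group
  calc g * h * g⁻¹ * h⁻¹ * c
      = (g * h * g⁻¹ * h⁻¹ * c * h * g * h⁻¹ * g⁻¹) * (g * h * g⁻¹ * h⁻¹) := by group
    _ = c * (g * h * g⁻¹ * h⁻¹) := by rw [e6]

/-- An abelian group of odd order of automorphisms of a nontrivial abelian group of exponent `p`,
of order prime to `p`, all of whose nontrivial elements are fixed-point-free, is cyclic. -/
theorem isCyclic_of_free {W : Type*} [CommGroup W] [Finite W] [Nontrivial W] (p : ℕ)
    (hp : p.Prime) (hWp : ∀ w : W, w ^ p = 1) (D : Subgroup (MulAut W))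
    (hDc : ∀ x ∈ D, ∀ y ∈ D, x * y = y * x) (hDodd : Odd (Nat.card D))
    (hDp : (Nat.card D).Coprime p)
    (hfree : ∀ α ∈ D, α ≠ 1 → ∀ w : W, α w = w → w = 1) : IsCyclic ↥D := by
  haveI hZ : IsZGroup ↥D := by
    refine ⟨?_⟩
    intro s hs P
    haveI : Fact s.Prime := ⟨hs⟩
    have huniq : ∀ H K : Subgroup ↥(P : Subgroup ↥D), Nat.card H = s → Nat.card K = s → H = K := by
      apply Cfsg.Agent.S0040.unique_of_no_rank_two s P.isPGroup'
      intro x z hxz hxs hzs hind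
      by_cases hsp : s = p
      · subst hsp
        have hx : x = 1 := by
          have h1 : orderOf x ∣ s := orderOf_dvd_of_pow_eq_one hxs
          have h2 : orderOf x ∣ Nat.card D :=
            (orderOf_dvd_natCard x).trans (Subgroup.card_subgroup_dvd_card _)
          have h3 : orderOf x = 1 := Nat.eq_one_of_dvd_coprimes hDp h2 h1
          exact orderOf_eq_one_iff.1 h3
        have := hind 1 0 (by rw [hx]; simp)
        exact hs.one_lt.ne' (Nat.dvd_one.1 this.1)
      · have key := Cfsg.Agent.Lib.Helper95.FrobCompl.abs_pow_eq_one s hs.pos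
          (((x : ↥D)) : MulAut W) ((z : ↥D) : MulAut W)
          (congrArg (fun t : ↥(P : Subgroup ↥D) => ((t : ↥D) : MulAut W)) hxz)
          (congrArg (fun t : ↥(P : Subgroup ↥D) => ((t : ↥D) : MulAut W)) hxs)
          (congrArg (fun t : ↥(P : Subgroup ↥D) => ((t : ↥D) : MulAut W)) hzs)
          (by
            intro k w hw
            by_contra hw1
            have h1 : (((x * z ^ k : ↥(P : Subgroup ↥D)) : ↥D) : MulAut W) = 1 := by
              by_contra hne
              exact hw1 (hfree _ ((x * z ^ k : ↥(P : Subgroup ↥D)) : ↥D).2 hne w hw)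
            have h2 : x ^ 1 * z ^ k = 1 := by
              rw [pow_one]
              apply Subtype.ext
              apply Subtype.ext
              exact h1
            have := (hind 1 k h2).1
            exact hs.one_lt.ne' (Nat.dvd_one.1 this))
          (by
            intro i hi his w hw
            by_contra hw1
            have h1 : (((z ^ i : ↥(P : Subgroup ↥D)) : ↥D) : MulAut W) = 1 := by
              by_contra hne
              exact hw1 (hfree _ ((z ^ i : ↥(P : Subgroup ↥D)) : ↥D).2 hne w hw)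
            have h2 : x ^ 0 * z ^ i = 1 := by
              rw [pow_zero, one_mul]
              apply Subtype.ext
              apply Subtype.ext
              exact h1
            have := (hind 0 i h2).2
            have := Nat.le_of_dvd hi this
            omega)
        obtain ⟨w, hw⟩ := exists_ne (1 : W)
        apply hw
        have h1 : orderOf w ∣ s := orderOf_dvd_of_pow_eq_one (key w)
        have h2 : orderOf w ∣ p := orderOf_dvd_of_pow_eq_one (hWp w)
        have h3 : Nat.Coprime s p := (Nat.coprime_primes hs hp).2 hsp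
        exact orderOf_eq_one_iff.1 (Nat.eq_one_of_dvd_coprimes h3 h1 h2)
    rcases Cfsg.Agent.S0016.result (G := ↥(P : Subgroup ↥D)) s P.isPGroup' huniq with
      h | ⟨hs2, n, ⟨e⟩⟩
    · exact h
    · exfalso
      have h1 : Nat.card P = 4 * 2 ^ n := by
        rw [Nat.card_congr e.toEquiv, Nat.card_eq_fintype_card, QuaternionGroup.card]
      have h2 : Nat.card P ∣ Nat.card D := Subgroup.card_subgroup_dvd_card _
      rw [h1] at h2
      have h3 : 2 ∣ Nat.card D := dvd_trans ⟨2 * 2 ^ n, by ring⟩ h2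
      rcases hDodd with ⟨m, hm⟩
      omega
  haveI : Group.IsNilpotent ↥D :=
    @CommGroup.isNilpotent ↥D
      { (inferInstance : Group ↥D) with
        mul_comm := fun x y => Subtype.ext (hDc x x.2 y y.2) }
  exact inferInstance

variable {X : Type u} [Group X] [Finite X]
variable {p r : ℕ} {V A T : Subgroup X} {a : X}

/-- conjugation by an element of the normalizer, as an automorphism of `V` -/
def cAut (V : Subgroup X) : ↥(Subgroup.normalizer (V : Set X)) →* MulAut ↥V where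
  toFun g :=
    { toFun := fun v => ⟨(g : X) * v * (g : X)⁻¹, nconj g.2 v.2⟩
      invFun := fun v => ⟨(g : X)⁻¹ * v * (g : X), nconj' g.2 v.2⟩
      left_inv := fun v => Subtype.ext (by simp [mul_assoc])
      right_inv := fun v => Subtype.ext (by simp [mul_assoc])
      map_mul' := fun v w => Subtype.ext (by simp [mul_assoc]) }
  map_one' := by
    ext v
    simp
  map_mul' := fun g h => by
    ext v
    simp [mul_assoc]

theorem cAut_apply (V : Subgroup X) (g : ↥(Subgroup.normalizer (V : Set X))) (v : ↥V) :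
    ((cAut V g v : ↥V) : X) = (g : X) * v * (g : X)⁻¹ := rfl

theorem free_case (h : Ctx p r V A T a) (hV : V ≠ ⊥)
    (hfree : ∀ x ∈ A, (∃ v ∈ V, v ≠ 1 ∧ x * v = v * x) → ∀ v ∈ V, x * v = v * x) :
    ∀ x ∈ A, ∀ t ∈ T, ∀ v ∈ V, (x * t * x⁻¹ * t⁻¹) * v = v * (x * t * x⁻¹ * t⁻¹) := by
  letI : CommGroup ↥V :=
    { (inferInstance : Group ↥V) with
      mul_comm := fun x y => Subtype.ext (h.hVc x x.2 y y.2) }
  haveI : Nontrivial ↥V := (Subgroup.nontrivial_iff_ne_bot V).2 hV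
  let ρ : ↥A →* MulAut ↥V := (cAut V).comp (Subgroup.inclusion h.hAV)
  have hρ : ∀ (x : ↥A) (v : ↥V), ((ρ x v : ↥V) : X) = (x : X) * v * (x : X)⁻¹ := fun x v => rfl
  have hDc : ∀ α ∈ ρ.range, ∀ β ∈ ρ.range, α * β = β * α := by
    rintro _ ⟨x, rfl⟩ _ ⟨y, rfl⟩
    rw [← map_mul, ← map_mul]
    congr 1
    exact Subtype.ext (h.hAc x x.2 y y.2)
  have hDcard : Nat.card ρ.range ∣ Nat.card A := Subgroup.card_range_dvd ρ
  have hDodd : Odd (Nat.card ρ.range) := Odd.of_dvd_nat h.hAodd hDcard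
  have hDp : (Nat.card ρ.range).Coprime p := Nat.Coprime.coprime_dvd_left hDcard h.hAp
  have hDfree : ∀ α ∈ ρ.range, α ≠ 1 → ∀ w : ↥V, α w = w → w = 1 := by
    rintro _ ⟨x, rfl⟩ hne w hw
    by_contra hw1
    apply hne
    have h1 : (x : X) * w = w * x := by
      have := congrArg Subtype.val hw
      rw [hρ] at this
      calc (x : X) * w = ((x : X) * w * (x : X)⁻¹) * x := by group
        _ = w * x := by rw [this]
    have h2 := hfree x x.2 ⟨w, w.2, fun e => hw1 (Subtype.ext e), h1⟩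
    ext v
    rw [hρ, h2 v v.2, mul_inv_cancel_right]
    rfl
  haveI : IsCyclic ↥ρ.range :=
    isCyclic_of_free p h.hp (fun w => Subtype.ext (h.hVp w w.2)) ρ.range hDc hDodd hDp hDfree
  have hnorm : ∀ u : ↥(Subgroup.normalizer (V : Set X)),
      (u : X) ∈ Subgroup.normalizer (A : Set X) →
      cAut V u ∈ Subgroup.normalizer ((ρ.range : Subgroup (MulAut ↥V)) : Set (MulAut ↥V)) := by
    intro u hu
    rw [Subgroup.mem_normalizer_iff]
    intro α
    constructor
    · rintro ⟨x, rfl⟩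
      refine ⟨⟨u * x * (u : X)⁻¹, nconj hu x.2⟩, ?_⟩
      show (cAut V) ⟨_, _⟩ = cAut V u * (cAut V) ⟨x, _⟩ * (cAut V u)⁻¹
      rw [← map_inv, ← map_mul, ← map_mul]
      congr 1
    · rintro ⟨x, hx⟩
      refine ⟨⟨(u : X)⁻¹ * x * u, nconj' hu x.2⟩, ?_⟩
      have e : α = (cAut V u)⁻¹ * ρ x * cAut V u := by
        rw [hx]; group
      rw [e]
      show (cAut V) ⟨_, _⟩ = (cAut V u)⁻¹ * (cAut V) ⟨x, _⟩ * cAut V u
      rw [← map_inv, ← map_mul, ← map_mul]
      congr 1
  intro x hx t ht v hv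
  obtain ⟨s, hs, e⟩ := lang_surj h le_rfl h.haT ht
  let g : ↥(Subgroup.normalizer (V : Set X)) := ⟨s⁻¹, Subgroup.inv_mem _ (h.hTV hs)⟩
  let k : ↥(Subgroup.normalizer (V : Set X)) := ⟨a, h.haV⟩
  let t' : ↥(Subgroup.normalizer (V : Set X)) := ⟨t, h.hTV ht⟩
  let x' : ↥(Subgroup.normalizer (V : Set X)) := ⟨x, h.hAV hx⟩
  have hg := hnorm g (Subgroup.inv_mem _ (h.hTA hs))
  have hk := hnorm k h.haA
  have ht' : cAut V t' = cAut V g * cAut V k * (cAut V g)⁻¹ * (cAut V k)⁻¹ := by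
    rw [← map_inv, ← map_inv, ← map_mul, ← map_mul, ← map_mul]
    congr 1
    apply Subtype.ext
    show t = s⁻¹ * a * s⁻¹⁻¹ * a⁻¹
    rw [inv_inv, e]
  have hcomm : cAut V t' * cAut V x' = cAut V x' * cAut V t' := by
    rw [ht']
    exact comm_centralizes_cyclic ρ.range hg hk (cAut V x') ⟨⟨x, hx⟩, rfl⟩
  have h1 : cAut V (x' * t' * x'⁻¹ * t'⁻¹) = 1 := by
    rw [map_mul, map_mul, map_mul, map_inv, map_inv, ← hcomm]
    group
  have h2 := congrArg (fun φ : MulAut ↥V => ((φ ⟨v, hv⟩ : ↥V) : X)) h1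
  have h3 : (x * t * x⁻¹ * t⁻¹) * v * (x * t * x⁻¹ * t⁻¹)⁻¹ = v := h2
  calc x * t * x⁻¹ * t⁻¹ * v
      = ((x * t * x⁻¹ * t⁻¹) * v * (x * t * x⁻¹ * t⁻¹)⁻¹) * (x * t * x⁻¹ * t⁻¹) := by group
    _ = v * (x * t * x⁻¹ * t⁻¹) := by rw [h3]

end Cfsg.Agent.Lib.Helper33.BG36W
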