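import Mathlib
import Cfsg.Agent.Lib.Helper33.BG36W3
import Cfsg.Agent.Lib.Helper23.BG36.Defs

/-!
# B-G Theorem 3.6, package P1: the orbit/parity lemma `LemmaW`

`A` an abelian `p'`-group of odd order, `T` a `p`-group, `a` of prime order `r` acting
fixed-point-freely on `T`, all acting on the elementary abelian `p`-group `V` with `C_V(a)`
cyclic (`p`, `r` odd and distinct): then `[A, T]` centralizes `V`.
-/

set_option autoImplicit false
set_option linter.unusedSectionVars false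
set_option linter.style.haveILetI false

namespace Cfsg.Agent.Lib.Helper33.BG36W

open Cfsg.Agent.Lib.Helper33
open scoped commutatorElement

universe u

variable {X : Type u} [Group X] [Finite X]
variable {p r : ℕ} {V A T : Subgroup X} {a : X}

/-- If `[A, T]` centralizes a nontrivial subgroup of `V` (and the lemma holds for smaller `V`),
then `[A, T]` centralizes `V`. -/
theorem of_fixed_sub (h : Ctx p r V A T a)
    (IH : ∀ M : Subgroup X, Nat.card M < Nat.card V → Ctx p r M A T a →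
      ∀ x ∈ A, ∀ t ∈ T, ∀ v ∈ M, (x * t * x⁻¹ * t⁻¹) * v = v * (x * t * x⁻¹ * t⁻¹))
    {U : Subgroup X} (hUV : U ≤ V) (hU : U ≠ ⊥)
    (hcU : ∀ x ∈ A, ∀ t ∈ T, ∀ u ∈ U, (x * t * x⁻¹ * t⁻¹) * u = u * (x * t * x⁻¹ * t⁻¹)) :
    ∀ x ∈ A, ∀ t ∈ T, ∀ v ∈ V, (x * t * x⁻¹ * t⁻¹) * v = v * (x * t * x⁻¹ * t⁻¹) := by
  have hEA : ⁅A, T⁆ ≤ A := by
    rw [Subgroup.commutator_le]
    intro x hx t ht
    rw [commutatorElement_def]
    have := A.mul_mem hx (nconj (h.hTA ht) (A.inv_mem hx))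
    simpa [mul_assoc] using this
  have hgen : ∀ x ∈ A, ∀ t ∈ T, x * t * x⁻¹ * t⁻¹ ∈ ⁅A, T⁆ :=
    fun x hx t ht => Subgroup.commutator_mem_commutator hx ht
  have hEcent : ∀ M : Subgroup X,
      (∀ x ∈ A, ∀ t ∈ T, ∀ u ∈ M, (x * t * x⁻¹ * t⁻¹) * u = u * (x * t * x⁻¹ * t⁻¹)) →
      M ≤ Subgroup.centralizer ((⁅A, T⁆ : Subgroup X) : Set X) := by
    intro M hM
    rw [Subgroup.le_centralizer_iff, Subgroup.commutator_le]
    intro x hx t ht
    rw [Subgroup.mem_centralizer_iff]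
    intro u hu
    rw [commutatorElement_def]
    exact (hM x hx t ht u hu).symm
  have hUE : U ≤ CV V ⁅A, T⁆ := le_inf hUV (hEcent U hcU)
  have hCVE : CV V ⁅A, T⁆ ≠ ⊥ := fun e => hU (le_bot_iff.1 (e ▸ hUE))
  have hWV : ⁅V, ⁅A, T⁆⁆ ≤ V := by
    rw [Subgroup.commutator_le]
    intro v hv e he
    rw [commutatorElement_def]
    have := V.mul_mem hv (nconj (h.hAV (hEA he)) (V.inv_mem hv))
    simpa [mul_assoc] using this
  have hind := indep h hEA
  have hWne : ⁅V, ⁅A, T⁆⁆ ≠ V := by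
    intro e
    rw [e] at hind
    apply hCVE
    rw [← hind]
    exact (inf_eq_left.2 (CV_le V ⁅A, T⁆)).symm
  have hWcard : Nat.card ↥⁅V, ⁅A, T⁆⁆ < Nat.card V := card_lt_of_lt (lt_of_le_of_ne hWV hWne)
  have hnormC : ∀ (g : X) (H K : Subgroup X), g ∈ Subgroup.normalizer (H : Set X) →
      g ∈ Subgroup.normalizer (K : Set X) →
      g ∈ Subgroup.normalizer ((⁅H, K⁆ : Subgroup X) : Set X) := by
    intro g H K hgH hgK
    rw [mem_normalizer_iff_cj]
    show Subgroup.map _ ⁅H, K⁆ = _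
    rw [Subgroup.map_commutator]
    show ⁅cj g H, cj g K⁆ = _
    rw [mem_normalizer_iff_cj.1 hgH, mem_normalizer_iff_cj.1 hgK]
  have hAE : A ≤ Subgroup.normalizer ((⁅A, T⁆ : Subgroup X) : Set X) :=
    fun x hx => mem_normalizer_iff_cj.2 (cj_eq_of_abelian h.hAc hEA hx)
  have hctxW : Ctx p r ⁅V, ⁅A, T⁆⁆ A T a :=
    h.sub hWV (fun x hx => hnormC x _ _ (h.hAV hx) (hAE hx))
      (fun t ht => hnormC t _ _ (h.hTV ht) (hnormC t _ _ (h.hTA ht) (Subgroup.le_normalizer ht)))
      (hnormC a _ _ h.haV (hnormC a _ _ h.haA h.haT))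
  have hW2 := IH _ hWcard hctxW
  have hWE : ⁅V, ⁅A, T⁆⁆ ≤ CV V ⁅A, T⁆ := le_inf hWV (hEcent _ hW2)
  have hWbot : ⁅V, ⁅A, T⁆⁆ = ⊥ := by
    rw [eq_bot_iff, ← hind]
    exact le_inf hWE le_rfl
  intro x hx t ht v hv
  have h1 : ⁅v, x * t * x⁻¹ * t⁻¹⁆ ∈ ⁅V, ⁅A, T⁆⁆ :=
    Subgroup.commutator_mem_commutator hv (hgen x hx t ht)
  rw [hWbot, Subgroup.mem_bot, commutatorElement_eq_one_iff_mul_comm] at h1
  exact h1.symm

theorem main (p r : ℕ) (A T : Subgroup X) (a : X) :
    ∀ (n : ℕ) (V : Subgroup X), Nat.card V = n → Ctx p r V A T a →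
    ∀ x ∈ A, ∀ t ∈ T, ∀ v ∈ V, (x * t * x⁻¹ * t⁻¹) * v = v * (x * t * x⁻¹ * t⁻¹) := by
  intro n
  induction n using Nat.strong_induction_on with
  | _ n ih =>
    intro V hn h
    have IH : ∀ M : Subgroup X, Nat.card M < Nat.card V → Ctx p r M A T a →
        ∀ x ∈ A, ∀ t ∈ T, ∀ v ∈ M, (x * t * x⁻¹ * t⁻¹) * v = v * (x * t * x⁻¹ * t⁻¹) :=
      fun M hM hc => ih (Nat.card M) (hn ▸ hM) M rfl hc
    by_cases hV : V = ⊥
    · intro x hx t ht v hv
      rw [hV, Subgroup.mem_bot] at hv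
      rw [hv, mul_one, one_mul]
    have hCV0 : CV V ⊥ ≠ ⊥ := by
      have e : CV V ⊥ = V := by
        apply le_antisymm (CV_le V ⊥)
        intro v hv
        rw [mem_CV]
        refine ⟨hv, fun b hb => ?_⟩
        rw [Subgroup.mem_bot.1 hb, one_mul, mul_one]
      rwa [e]
    obtain ⟨B, hB, -⟩ := exists_mem_MM (bot_le : (⊥ : Subgroup X) ≤ A) hCV0
    have hBT : ∀ t ∈ T, cj t B = B := by
      by_cases hBa : cj a B = B
      · exact T_inv_of_a_inv h hB hBa
      · exact T_inv_of_not_a_inv h hB hBa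
    by_cases hVB : V ≤ Subgroup.centralizer (B : Set X)
    · -- the free case
      apply free_case h hV
      rintro x hx ⟨v, hv, hv1, hxv⟩
      have h1 : CV V (B ⊔ Subgroup.zpowers x) ≠ ⊥ := by
        intro e
        have hmem : v ∈ CV V (B ⊔ Subgroup.zpowers x) := by
          rw [mem_CV]
          refine ⟨hv, mem_centralizer_sup (fun b hb => ?_) (fun b hb => ?_)⟩
          · exact Subgroup.mem_centralizer_iff.1 (hVB hv) b hb
          · obtain ⟨k, rfl⟩ := Subgroup.mem_zpowers_iff.1 hb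
            exact (Commute.zpow_left (show Commute x v from hxv) k).eq
        rw [e, Subgroup.mem_bot] at hmem
        exact hv1 hmem
      have h2 := hB.2.2 (B ⊔ Subgroup.zpowers x) le_sup_left
        (sup_le hB.1 (by rw [Subgroup.zpowers_le]; exact hx)) h1
      have hxB : x ∈ B := by
        rw [← h2]
        exact (le_sup_right : Subgroup.zpowers x ≤ B ⊔ Subgroup.zpowers x)
          (Subgroup.mem_zpowers x)
      intro w hw
      exact Subgroup.mem_centralizer_iff.1 (hVB hw) x hxB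
    · have hMV : CV V B ≤ V := CV_le V B
      have hMne : CV V B ≠ V := by
        intro e
        apply hVB
        intro v hv
        rw [← e] at hv
        exact (Subgroup.mem_inf.1 hv).2
      have hnormCV : ∀ g : X, g ∈ Subgroup.normalizer (V : Set X) → cj g B = B →
          g ∈ Subgroup.normalizer ((CV V B : Subgroup X) : Set X) := by
        intro g hgV hgB
        rw [mem_normalizer_iff_cj, cj_CV (mem_normalizer_iff_cj.1 hgV), hgB]
      have hACV : A ≤ Subgroup.normalizer ((CV V B : Subgroup X) : Set X) :=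
        fun x hx => hnormCV x (h.hAV hx) (cj_eq_of_abelian h.hAc hB.1 hx)
      have hTCV : T ≤ Subgroup.normalizer ((CV V B : Subgroup X) : Set X) :=
        fun t ht => hnormCV t (h.hTV ht) (hBT t ht)
      by_cases hBa : cj a B = B
      · have hctx : Ctx p r (CV V B) A T a := h.sub hMV hACV hTCV (hnormCV a h.haV hBa)
        exact of_fixed_sub h IH hMV hB.2.1
          (IH (CV V B) (card_lt_of_lt (lt_of_le_of_ne hMV hMne)) hctx)
      · have hcard := (norm_bij h hB hBa).1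
        have hTc := centralizes_of_card_eq h hcard hTCV
        apply of_fixed_sub h IH hMV hB.2.1
        intro x hx t ht u hu
        have hu' : x⁻¹ * u * x ∈ CV V B := nconj' (hACV hx) hu
        have e1 := hTc t⁻¹ (T.inv_mem ht) u hu
        have e2 := hTc t ht _ hu'
        calc x * t * x⁻¹ * t⁻¹ * u = x * t * x⁻¹ * (t⁻¹ * u) := by group
          _ = x * t * x⁻¹ * (u * t⁻¹) := by rw [e1]
          _ = x * (t * (x⁻¹ * u * x)) * x⁻¹ * t⁻¹ := by group
          _ = x * ((x⁻¹ * u * x) * t) * x⁻¹ * t⁻¹ := by rw [e2]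
          _ = u * (x * t * x⁻¹ * t⁻¹) := by group

/-- **Package P1 of the team project S1444 (B-G Theorem 3.6): the orbit/parity lemma.** -/
theorem lemmaW : Cfsg.Agent.Lib.Helper23.BG36.LemmaW.{u} := by
  intro X _ _ p r hp hr hp2 hr2 hpr V A T a hVp hVc hAc hAp hAodd hT hAV hTV haV hTA haA haT
    har hfpf hcyc
  exact main p r A T a _ V rfl
    ⟨hp, hr, hp2, hr2, hpr, hVp, hVc, hAc, hAp, hAodd, hT, hAV, hTV, haV, hTA, haA, haT, har,
      hfpf, hcyc⟩

end Cfsg.Agent.Lib.Helper33.BG36W
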