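import Mathlib
import Cfsg.Prelude.Def_ConjugacyFunctors
import Cfsg.Prelude.Def_Solvable
import Cfsg.Prelude.Def_PLocal
import Cfsg.Prelude.Def_LocalEven
import Cfsg.Agent.Lib.Helper33.Sect9

set_option autoImplicit false

universe u

namespace Cfsg.Agent.Lib.Helper33

open Cfsg

/-! ### `Ω₁(Z(S))` -/

section oz

variable {X : Type*} [Group X] {p : ℕ}

/-- `Ω₁(Z(S))`: the subgroup generated by the elements of order dividing `p` in the centre of `S`. -/
def oz (p : ℕ) (S : Subgroup X) : Subgroup X :=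
  omegaOne p (S ⊓ Subgroup.centralizer (S : Set X))

theorem oz_def (p : ℕ) (S : Subgroup X) :
    oz p S = omegaOne p (S ⊓ Subgroup.centralizer (S : Set X)) := rfl

theorem oz_le (p : ℕ) (S : Subgroup X) : oz p S ≤ S ⊓ Subgroup.centralizer (S : Set X) := by
  unfold oz omegaOne
  rw [Subgroup.closure_le]
  rintro x ⟨hx, -⟩
  exact hx

theorem oz_le_left (p : ℕ) (S : Subgroup X) : oz p S ≤ S := (oz_le p S).trans inf_le_left

theorem oz_comm {S : Subgroup X} {x y : X} (hx : x ∈ oz p S) (hy : y ∈ S) : x * y = y * x :=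
  ((Subgroup.mem_centralizer_iff.1 (oz_le p S hx).2) y hy).symm

theorem oz_pow {S : Subgroup X} {z : X} (hz : z ∈ oz p S) : z ^ p = 1 := by
  have key : ∀ w ∈ Subgroup.closure {x : X | x ∈ S ⊓ Subgroup.centralizer (S : Set X) ∧ x ^ p = 1},
      w ^ p = 1 := by
    intro w hw
    induction hw using Subgroup.closure_induction with
    | mem x hx => exact hx.2
    | one => exact one_pow _
    | mul x y hx hy ihx ihy =>
      have hc : Commute x y := oz_comm (p := p) (S := S) hx (oz_le_left p S hy)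
      rw [hc.mul_pow, ihx, ihy, one_mul]
    | inv x hx ih => rw [inv_pow, ih, inv_one]
  exact key z hz

/-- `Ω₁(Z(-))` commutes with homomorphisms that are injective on the subgroup. -/
theorem oz_map {Y : Type*} [Group Y] (f : X →* Y) (S : Subgroup X)
    (hinj : ∀ x ∈ S, f x = 1 → x = 1) : oz p (S.map f) = (oz p S).map f := by
  have hinj' : ∀ a ∈ S, ∀ b ∈ S, f a = f b → a = b := by
    intro a ha b hb hab
    have h1 : f (a⁻¹ * b) = 1 := by rw [map_mul, map_inv, hab, inv_mul_cancel]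
    have h2 := hinj _ (mul_mem (inv_mem ha) hb) h1
    exact inv_mul_eq_one.1 h2
  unfold oz omegaOne
  rw [MonoidHom.map_closure]
  congr 1
  ext y
  constructor
  · rintro ⟨hy, hyp⟩
    obtain ⟨⟨x, hx, rfl⟩, hyc⟩ := Subgroup.mem_inf.1 hy
    refine ⟨x, ⟨Subgroup.mem_inf.2 ⟨hx, ?_⟩, ?_⟩, rfl⟩
    · rw [Subgroup.mem_centralizer_iff]
      intro s hs
      apply hinj' _ (mul_mem hs hx) _ (mul_mem hx hs)
      rw [map_mul, map_mul]
      exact Subgroup.mem_centralizer_iff.1 hyc (f s) ⟨s, hs, rfl⟩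
    · apply hinj' _ (pow_mem hx p) _ (one_mem S)
      rw [map_pow, map_one]
      exact hyp
  · rintro ⟨x, ⟨hx, hxp⟩, rfl⟩
    obtain ⟨hxS, hxc⟩ := Subgroup.mem_inf.1 hx
    refine ⟨Subgroup.mem_inf.2 ⟨⟨x, hxS, rfl⟩, ?_⟩, ?_⟩
    · rw [Subgroup.mem_centralizer_iff]
      rintro _ ⟨s, hs, rfl⟩
      rw [← map_mul, ← map_mul, Subgroup.mem_centralizer_iff.1 hxc s hs]
    · show f x ^ p = 1
      rw [← map_pow, hxp, map_one]

end oz

/-! ### Sylow subgroups of subgroups -/

section sylsub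

variable {X : Type*} [Group X] {p : ℕ}

theorem sylIn_subgroupOf {S H : Subgroup X} (hS : SylIn p S ⊤) (hSH : S ≤ H) :
    SylIn p (S.subgroupOf H) ⊤ := by
  have h1 := hS.of_le hSH le_top
  refine ⟨le_top, h1.2.1.comap_subtype, ?_⟩
  rw [Subgroup.relIndex_top_right]
  exact h1.2.2

theorem SylIn.exists_sylow [Fact p.Prime] {S : Subgroup X} (hS : SylIn p S ⊤) :
    ∃ T : Sylow p X, (T : Subgroup X) = S := by
  have hidx : ¬ p ∣ S.index := by
    rw [← Subgroup.relIndex_top_right]; exact hS.2.2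
  exact ⟨hS.2.1.toSylow hidx, IsPGroup.toSylow_coe _ _⟩

end sylsub

/-! ### The factorisation `X = N_X(W(S)) C_X(Ω₁Z(S))` -/

section ozfac

variable {p : ℕ} {W W' : ∀ (Q : Type u) [Group Q], Subgroup Q}

/-- The factorisation `X = N_X(W(S)) C_X(Ω₁Z(S))` for every Sylow `p`-subgroup `S` of `X` with
`W'(S)` normal in `X` and `Ω₁Z(S) ≤ W'(S)`. -/
def OzFac (p : ℕ) (W W' : ∀ (Q : Type u) [Group Q], Subgroup Q) (X : Type u) [Group X] : Prop :=
  ∀ S : Subgroup X, SylIn p S ⊤ → (inducedFunctor (G := X) W' S).Normal →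
    oz p S ≤ inducedFunctor (G := X) W' S →
    ∀ g : X, ∃ n ∈ Subgroup.normalizer ((inducedFunctor (G := X) W S : Subgroup X) : Set X),
      ∃ c ∈ Subgroup.centralizer ((oz p S : Subgroup X) : Set X), g = n * c

theorem inducedFunctor_subgroupOf (hW : IsCharPFunctor.{u} p W) {X : Type u} [Group X] [Finite X]
    {S H : Subgroup X} (hpS : IsPGroup p S) (hSH : S ≤ H) :
    (inducedFunctor (G := ↥H) W (S.subgroupOf H)).map H.subtype = inducedFunctor (G := X) W S := by
  have h := inducedFunctor_map hW H.subtype (S.subgroupOf H) hpS.comap_subtype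
    (fun x _ hx => Subtype.ext hx)
  rw [← h, Subgroup.map_subgroupOf_eq_of_le hSH]

theorem oz_subgroupOf {X : Type*} [Group X] {S H : Subgroup X} (hSH : S ≤ H) :
    (oz p (S.subgroupOf H)).map H.subtype = oz p S := by
  have h := oz_map (p := p) H.subtype (S.subgroupOf H) (fun x _ hx => Subtype.ext hx)
  rw [← h, Subgroup.map_subgroupOf_eq_of_le hSH]

/-- The factorisation in a subgroup `H`, read in the ambient group. -/
theorem ozFac_subgroup (hW : IsCharPFunctor.{u} p W) (hW' : IsCharPFunctor.{u} p W')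
    {X : Type u} [Group X] [Finite X] {H S : Subgroup X} (hH : OzFac p W W' ↥H)
    (hS : SylIn p S ⊤) (hSH : S ≤ H)
    (hnorm : H ≤ Subgroup.normalizer ((inducedFunctor (G := X) W' S : Subgroup X) : Set X))
    (hZ : oz p S ≤ inducedFunctor (G := X) W' S) {g : X} (hg : g ∈ H) :
    ∃ n ∈ H ⊓ Subgroup.normalizer ((inducedFunctor (G := X) W S : Subgroup X) : Set X),
      ∃ c ∈ Subgroup.centralizer ((oz p S : Subgroup X) : Set X), g = n * c := by
  have hpS : IsPGroup p S := hS.2.1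
  have e1 := inducedFunctor_subgroupOf hW hpS hSH
  have e2 := inducedFunctor_subgroupOf hW' hpS hSH
  have e3 : (oz p (S.subgroupOf H)).map H.subtype = oz p S := oz_subgroupOf hSH
  have hn' : (inducedFunctor (G := ↥H) W' (S.subgroupOf H)).Normal := by
    constructor
    intro n hn k
    have h1 : (n : X) ∈ inducedFunctor (G := X) W' S := by
      rw [← e2]; exact ⟨n, hn, rfl⟩
    have h2 : (k : X) * n * (k : X)⁻¹ ∈ inducedFunctor (G := X) W' S :=
      (Subgroup.mem_normalizer_iff.1 (hnorm k.2) n).1 h1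
    rw [← e2] at h2
    obtain ⟨m, hm, hmk⟩ := h2
    have : m = k * n * k⁻¹ := Subtype.ext hmk
    rw [← this]; exact hm
  have hZ' : oz p (S.subgroupOf H) ≤ inducedFunctor (G := ↥H) W' (S.subgroupOf H) := by
    rw [← Subgroup.map_le_map_iff_of_injective H.subtype_injective, e3, e2]
    exact hZ
  obtain ⟨n, hn, c, hc, e⟩ := hH (S.subgroupOf H) (sylIn_subgroupOf hS hSH) hn' hZ' ⟨g, hg⟩
  refine ⟨n, Subgroup.mem_inf.2 ⟨n.2, ?_⟩, c, ?_, congrArg Subtype.val e⟩
  · rw [← e1]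
    exact Subgroup.le_normalizer_map H.subtype ⟨n, hn, rfl⟩
  · rw [Subgroup.mem_centralizer_iff]
    intro z hz
    rw [← e3] at hz
    obtain ⟨z', hz', rfl⟩ := hz
    exact congrArg Subtype.val (Subgroup.mem_centralizer_iff.1 hc z' hz')

/-- The factorisation lifts through a quotient by a normal `p'`-subgroup. -/
theorem ozFac_of_quot (hW : IsCharPFunctor.{u} p W) (hW' : IsCharPFunctor.{u} p W')
    {X : Type u} [Group X] [Finite X] [Fact p.Prime] (N : Subgroup X) [N.Normal]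
    (hN : (Nat.card N).Coprime p) (h : OzFac p W W' (X ⧸ N)) : OzFac p W W' X := by
  intro S hS hTn hZ g
  have hpS : IsPGroup p S := hS.2.1
  have hS' := hS.map_surjective (QuotientGroup.mk' N) (QuotientGroup.mk'_surjective N)
  have hcf := isConjugacyFunctor_induced hW X
  have hcf' := isConjugacyFunctor_induced hW' X
  have hinj : ∀ x ∈ S, QuotientGroup.mk' N x = 1 → x = 1 := by
    intro x hx h1
    have h2 : x ∈ S ⊓ N := Subgroup.mem_inf.2 ⟨hx, (QuotientGroup.eq_one_iff x).1 h1⟩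
    rw [inf_eq_bot_of_pgroup_coprime hpS hN, Subgroup.mem_bot] at h2
    exact h2
  have e1 := inducedFunctor_map_mk' hW hN hpS
  have e2 := inducedFunctor_map_mk' hW' hN hpS
  have e3 : oz p (S.map (QuotientGroup.mk' N)) = (oz p S).map (QuotientGroup.mk' N) :=
    oz_map _ S hinj
  have hn' : (inducedFunctor (G := X ⧸ N) W' (S.map (QuotientGroup.mk' N))).Normal := by
    rw [e2]
    exact hTn.map _ (QuotientGroup.mk'_surjective N)
  have hZ' : oz p (S.map (QuotientGroup.mk' N)) ≤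
      inducedFunctor (G := X ⧸ N) W' (S.map (QuotientGroup.mk' N)) := by
    rw [e2, e3]
    exact Subgroup.map_mono hZ
  obtain ⟨n', hn'', c', hc', e⟩ := h _ hS' hn' hZ' (QuotientGroup.mk' N g)
  rw [e1] at hn''
  obtain ⟨y, hy, hyn, -⟩ := step_lift hN hS (cf_le hcf hpS)
    (Subgroup.le_normalizer.trans (cf_normalizer_le hcf hpS)) hn'' (B := ∅)
    (Set.empty_subset _) (by
      rintro _ ⟨b, hb, -⟩
      obtain ⟨b', hb', -⟩ := hb
      exact absurd hb' (Set.notMem_empty _))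
  refine ⟨y, hy, y⁻¹ * g, ?_, by group⟩
  have hc'' : QuotientGroup.mk' N (y⁻¹ * g) = c' := by
    rw [map_mul, map_inv, hyn, e, inv_mul_cancel_left]
  rw [Subgroup.mem_centralizer_iff]
  intro z hz
  have hzT : z ∈ inducedFunctor (G := X) W' S := hZ hz
  have hzS : z ∈ S := oz_le_left p S hz
  have h1 : (y⁻¹ * g) * z * (y⁻¹ * g)⁻¹ ∈ S :=
    cf_le hcf' hpS (hTn.conj_mem z hzT (y⁻¹ * g))
  have h2 : QuotientGroup.mk' N ((y⁻¹ * g) * z * (y⁻¹ * g)⁻¹) = QuotientGroup.mk' N z := by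
    rw [map_mul, map_mul, map_inv, hc'']
    have hz' : QuotientGroup.mk' N z ∈ oz p (S.map (QuotientGroup.mk' N)) := by
      rw [e3]; exact ⟨z, hz, rfl⟩
    have := Subgroup.mem_centralizer_iff.1 hc' _ hz'
    rw [← this, mul_inv_cancel_right]
  have h3 := mk'_injOn_of_coprime hN hpS h1 hzS h2
  exact (mul_inv_eq_iff_eq_mul.1 h3).symm

/-- The factorisation transported along an isomorphism. -/
theorem ozFac_of_equiv (hW : IsCharPFunctor.{u} p W) {X Y : Type u} [Group X] [Group Y]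
    [Finite X] [Fact p.Prime] (e : X ≃* Y)
    (h : ∀ T : Sylow p Y, ∀ x : Y,
      ∃ a ∈ Subgroup.centralizer ((oz p (T : Subgroup Y) : Subgroup Y) : Set Y),
      ∃ b ∈ Subgroup.normalizer ((inducedFunctor (G := Y) W (T : Subgroup Y) : Subgroup Y) : Set Y),
        x = a * b) : OzFac p W W' X := by
  intro S hS _ _ g
  have hpS : IsPGroup p S := hS.2.1
  have hS' := hS.map_surjective e.toMonoidHom e.surjective
  obtain ⟨T, hT⟩ := hS'.exists_sylow
  have hinj : ∀ x ∈ S, e.toMonoidHom x = 1 → x = 1 := by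
    intro x _ hx
    exact e.injective (hx.trans (map_one e).symm)
  have e1 := inducedFunctor_map hW e.toMonoidHom S hpS hinj
  have e3 : oz p (S.map e.toMonoidHom) = (oz p S).map e.toMonoidHom := oz_map _ S hinj
  obtain ⟨a, ha, b, hb, hab⟩ := h T (e g⁻¹)
  rw [hT] at ha hb
  rw [e1, ← Subgroup.map_equiv_normalizer_eq] at hb
  obtain ⟨b₀, hb₀, rfl⟩ := hb
  refine ⟨b₀⁻¹, inv_mem hb₀, (e.symm a)⁻¹, inv_mem ?_, ?_⟩
  · rw [Subgroup.mem_centralizer_iff]
    intro z hz
    have hz' : e z ∈ oz p (S.map e.toMonoidHom) := by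
      rw [e3]; exact ⟨z, hz, rfl⟩
    have h1 := Subgroup.mem_centralizer_iff.1 ha _ hz'
    have h2 := congrArg e.symm h1
    rw [map_mul, map_mul, e.symm_apply_apply] at h2
    exact h2
  · have h2 := congrArg e.symm hab
    rw [map_mul, e.symm_apply_apply] at h2
    have h3 : e.symm (e.toMonoidHom b₀) = b₀ := e.symm_apply_apply b₀
    rw [h3] at h2
    rw [← mul_inv_rev, ← h2, inv_inv]

/-- The inductive step for a group without normal `p'`-subgroups that is not `p`-constrained. -/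
theorem ozFac_step (hW : IsCharPFunctor.{u} p W) (hW' : IsCharPFunctor.{u} p W')
    {X : Type u} [Group X] [Finite X] [Fact p.Prime]
    (hsubX : ∀ H : Subgroup X, H ≠ ⊤ → OzFac p W W' ↥H) (hOp : NoPPrime p X)
    (hnc : ¬ Subgroup.centralizer ((pCore p X : Subgroup X) : Set X) ≤ pCore p X) :
    OzFac p W W' X := by
  intro S hS hTn hZ g
  have hpS : IsPGroup p S := hS.2.1
  have hPn : (pCore p X).Normal := pCore_normal p X
  have hPS : pCore p X ≤ S := pCore_le_sylIn hS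
  have hcf' := isConjugacyFunctor_induced hW' X
  have hCn : (Subgroup.centralizer ((pCore p X : Subgroup X) : Set X)).Normal := inferInstance
  have hKn : (pCore p X ⊔ Subgroup.centralizer ((pCore p X : Subgroup X) : Set X)).Normal :=
    inferInstance
  have hN₁ : Subgroup.normalizer ((S ⊓ (pCore p X ⊔
      Subgroup.centralizer ((pCore p X : Subgroup X) : Set X)) : Subgroup X) : Set X) ≠ ⊤ := by
    intro htop
    apply hnc
    have hS₁n := Subgroup.normalizer_eq_top_iff.1 htop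
    have hS₁P := le_pCore hS₁n (hpS.to_le inf_le_left)
    have h1 : S ⊓ Subgroup.centralizer ((pCore p X : Subgroup X) : Set X) ≤
        pCore p X := (inf_le_inf_left _ le_sup_right).trans hS₁P
    exact le_pCore hCn (isPGroup_centralizer_of_inf_le hOp hS h1)
  have hSN₁ : S ≤ Subgroup.normalizer ((S ⊓ (pCore p X ⊔
      Subgroup.centralizer ((pCore p X : Subgroup X) : Set X)) : Subgroup X) : Set X) := by
    intro s hs
    rw [mem_normalizer_iff_cj, cj_inf, cj_eq_self_of_mem hs, cj_eq_self_of_normal hKn]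
  obtain ⟨n, hn, c, hc, rfl⟩ := frattini_factor hS hPS
    (C := Subgroup.centralizer ((pCore p X : Subgroup X) : Set X)) g
  have hnorm : Subgroup.normalizer ((S ⊓ (pCore p X ⊔
      Subgroup.centralizer ((pCore p X : Subgroup X) : Set X)) : Subgroup X) : Set X) ≤
      Subgroup.normalizer ((inducedFunctor (G := X) W' S : Subgroup X) : Set X) := by
    rw [Subgroup.normalizer_eq_top_iff.2 hTn]; exact le_top
  obtain ⟨n₁, hn₁, c₁, hc₁, rfl⟩ := ozFac_subgroup hW hW' (hsubX _ hN₁) hS hSN₁ hnorm hZ hn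
  refine ⟨n₁, (Subgroup.mem_inf.1 hn₁).2, c₁ * c, mul_mem hc₁ ?_, by group⟩
  rw [Subgroup.mem_centralizer_iff]
  intro z hz
  have hzP : z ∈ pCore p X := le_pCore hTn (hpS.to_le (cf_le hcf' hpS)) (hZ hz)
  exact Subgroup.mem_centralizer_iff.1 hc z hzP

/-- The factorisation `X = N_X(W(S)) C_X(Ω₁Z(S))` (when `W'(S)` is normal and contains
`Ω₁Z(S)`) in all sections of `G`, from the factorisation `C(Ω₁Z(T)) N(W(T))` in the
`p`-constrained sections. -/
theorem ozFac_sections {G : Type u} [Group G] [Finite G] [Fact p.Prime]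
    (hW : IsCharPFunctor.{u} p W) (hW' : IsCharPFunctor.{u} p W')
    (hfac : ∀ (K R : Subgroup G) [(R.subgroupOf K).Normal],
      Subgroup.centralizer ((pCore p (↥K ⧸ R.subgroupOf K) : Subgroup (↥K ⧸ R.subgroupOf K)) :
        Set (↥K ⧸ R.subgroupOf K)) ≤ pCore p (↥K ⧸ R.subgroupOf K) →
      ∀ T : Sylow p (↥K ⧸ R.subgroupOf K), ∀ x : (↥K ⧸ R.subgroupOf K),
        ∃ a ∈ Subgroup.centralizer ((oz p (T : Subgroup (↥K ⧸ R.subgroupOf K)) :
          Subgroup (↥K ⧸ R.subgroupOf K)) : Set (↥K ⧸ R.subgroupOf K)),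
        ∃ b ∈ Subgroup.normalizer ((inducedFunctor (G := (↥K ⧸ R.subgroupOf K)) W
          (T : Subgroup (↥K ⧸ R.subgroupOf K)) : Subgroup (↥K ⧸ R.subgroupOf K)) :
            Set (↥K ⧸ R.subgroupOf K)), x = a * b) :
    ∀ (X : Type u) [Group X], SubQ G X → OzFac p W W' X := by
  have key : ∀ n : ℕ, ∀ (X : Type u) [Group X], SubQ G X → Nat.card X = n → OzFac p W W' X := by
    intro n
    induction n using Nat.strong_induction_on with
    | _ n ih =>
      intro X _ hX hn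
      have := hX.finite
      have ih' : ∀ (Y : Type u) [Group Y], SubQ G Y → Nat.card Y < Nat.card X → OzFac p W W' Y :=
        fun Y _ hY hlt => ih (Nat.card Y) (hn ▸ hlt) Y hY rfl
      by_cases hOp : NoPPrime p X
      · by_cases hc : Subgroup.centralizer ((pCore p X : Subgroup X) : Set X) ≤ pCore p X
        · obtain ⟨K, R, hR, ⟨e⟩⟩ := hX.exists_equiv
          exact ozFac_of_equiv hW e (@hfac K R hR (constrained_equiv e hc))
        · exact ozFac_step hW hW'
            (fun H hH => ih' ↥H (hX.subgroup H) (card_subgroup_lt_of_ne_top hH)) hOp hc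
      · unfold NoPPrime at hOp
        push Not at hOp
        obtain ⟨N, hNn, hNc, hNne⟩ := hOp
        exact ozFac_of_quot hW hW' N hNc
          (ih' (X ⧸ N) (hX.quotient N) (card_quotient_lt_of_ne_bot hNne))
  intro X _ hX
  exact key _ X hX rfl

end ozfac

/-! ### The normal closure of `Ω₁Z(S)` in `N(W₁(S))` -/

section assembly

theorem conj_closure_mem {X : Type*} [Group X] {B : Set X} {g : X}
    (h : ∀ x ∈ B, g * x * g⁻¹ ∈ Subgroup.closure B) :
    ∀ x ∈ Subgroup.closure B, g * x * g⁻¹ ∈ Subgroup.closure B := by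
  intro x hx
  induction hx using Subgroup.closure_induction with
  | mem x hx => exact h x hx
  | one => simp
  | mul x y _ _ ihx ihy =>
    have e : g * (x * y) * g⁻¹ = (g * x * g⁻¹) * (g * y * g⁻¹) := by group
    rw [e]; exact mul_mem ihx ihy
  | inv x _ ih =>
    have e : g * x⁻¹ * g⁻¹ = (g * x * g⁻¹)⁻¹ := by group
    rw [e]; exact inv_mem ih

/-- The `N`-conjugates of the elements of `Z`. -/
def conjSet {X : Type*} [Group X] (N Z : Subgroup X) : Set X :=
  {x | ∃ g ∈ N, ∃ z ∈ Z, x = g * z * g⁻¹}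

theorem conjSet_closure_conj {X : Type*} [Group X] {N Z : Subgroup X} {g : X} (hg : g ∈ N) :
    ∀ x ∈ Subgroup.closure (conjSet N Z), g * x * g⁻¹ ∈ Subgroup.closure (conjSet N Z) := by
  apply conj_closure_mem
  rintro _ ⟨h, hh, z, hz, rfl⟩
  apply Subgroup.subset_closure
  exact ⟨g * h, mul_mem hg hh, z, hz, by group⟩

theorem le_normalizer_of_conj_mem {X : Type*} [Group X] {L A : Subgroup X}
    (h : ∀ g ∈ L, ∀ x ∈ A, g * x * g⁻¹ ∈ A) : L ≤ Subgroup.normalizer (A : Set X) := by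
  intro g hg
  rw [Subgroup.mem_normalizer_iff]
  intro x
  refine ⟨h g hg x, fun hx => ?_⟩
  have h1 := h g⁻¹ (inv_mem hg) _ hx
  have e : g⁻¹ * (g * x * g⁻¹) * g⁻¹⁻¹ = x := by group
  rwa [e] at h1

/-- The normal closure of `Z` in `N`, read in the ambient group, is generated by the
`N`-conjugates of the elements of `Z`. -/
theorem map_normalClosure_subgroupOf {X : Type*} [Group X] {N Z : Subgroup X} (hZN : Z ≤ N) :
    (Subgroup.normalClosure ((Z.subgroupOf N : Subgroup ↥N) : Set ↥N)).map N.subtype =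
      Subgroup.closure (conjSet N Z) := by
  apply le_antisymm
  · rw [Subgroup.map_le_iff_le_comap]
    have hn : ((Subgroup.closure (conjSet N Z)).comap N.subtype).Normal := by
      constructor
      intro n hn g
      rw [Subgroup.mem_comap] at hn ⊢
      exact conjSet_closure_conj g.2 _ hn
    apply Subgroup.normalClosure_le_normal
    intro w hw
    rw [SetLike.mem_coe, Subgroup.mem_comap]
    apply Subgroup.subset_closure
    exact ⟨1, one_mem N, w, Subgroup.mem_subgroupOf.1 hw, by simp⟩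
  · rw [Subgroup.closure_le]
    rintro _ ⟨g, hg, z, hz, rfl⟩
    refine ⟨⟨g, hg⟩ * ⟨z, hZN hz⟩ * ⟨g, hg⟩⁻¹, ?_, rfl⟩
    exact Subgroup.normalClosure_normal.conj_mem _
      (Subgroup.subset_normalClosure (Subgroup.mem_subgroupOf.2 hz)) _

theorem FRel.mem_of_forall_le {X : Type*} [Group X]
    {𝓦' : Set (Subgroup X → Subgroup X)} {H T L : Subgroup X}
    (hL : ∀ W' ∈ 𝓦', Subgroup.normalizer ((W' T : Subgroup X) : Set X) ≤ L)
    {A : Set X} {c : X} (h : FRel 𝓦' H T A c) : c ∈ L := by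
  induction h with
  | refl _ => exact one_mem _
  | step c y _ hy _ ih =>
    obtain ⟨W', hW', hyW⟩ := hy
    exact mul_mem (hL W' hW' (Subgroup.mem_inf.1 hyW).2) ih

/-- The group-theoretic core: if `N(T₁)` and `N(T₂)` both factorise over `N(T₁) ∩ N(T₂)` and
`C(Z)`, then the normal closure of `Z` in `N(T₁)` is elementary abelian and is normalised by
`N(T₁)` and `N(T₂)`. -/
theorem triple_core {X : Type*} [Group X] {p : ℕ} {S T₁ T₂ Z : Subgroup X}
    (hT₁S : T₁ ≤ S) (hZ₁ : Z ≤ T₁) (hZc : Z ≤ Subgroup.centralizer (S : Set X))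
    (hZp : ∀ z ∈ Z, z ^ p = 1)
    (hF₁ : ∀ g ∈ Subgroup.normalizer (T₁ : Set X),
      ∃ n ∈ Subgroup.normalizer (T₁ : Set X) ⊓ Subgroup.normalizer (T₂ : Set X),
      ∃ c ∈ Subgroup.centralizer (Z : Set X), g = n * c)
    (hF₂ : ∀ g ∈ Subgroup.normalizer (T₂ : Set X),
      ∃ n ∈ Subgroup.normalizer (T₂ : Set X) ⊓ Subgroup.normalizer (T₁ : Set X),
      ∃ c ∈ Subgroup.centralizer (Z : Set X), g = n * c) :
    Subgroup.closure (conjSet (Subgroup.normalizer (T₁ : Set X)) Z) ≤ T₁ ∧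
    IsElementaryAbelian p (Subgroup.closure (conjSet (Subgroup.normalizer (T₁ : Set X)) Z)) ∧
    Subgroup.normalizer (T₁ : Set X) ≤ Subgroup.normalizer
      ((Subgroup.closure (conjSet (Subgroup.normalizer (T₁ : Set X)) Z) : Subgroup X) : Set X) ∧
    Subgroup.normalizer (T₂ : Set X) ≤ Subgroup.normalizer
      ((Subgroup.closure (conjSet (Subgroup.normalizer (T₁ : Set X)) Z) : Subgroup X) : Set X) := by
  have hAT : Subgroup.closure (conjSet (Subgroup.normalizer (T₁ : Set X)) Z) ≤ T₁ := by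
    rw [Subgroup.closure_le]
    rintro _ ⟨g, hg, z, hz, rfl⟩
    exact (Subgroup.mem_normalizer_iff.1 hg z).1 (hZ₁ hz)
  have hAc : Subgroup.closure (conjSet (Subgroup.normalizer (T₁ : Set X)) Z) ≤
      Subgroup.centralizer (T₁ : Set X) := by
    rw [Subgroup.closure_le]
    rintro _ ⟨g, hg, z, hz, rfl⟩
    rw [SetLike.mem_coe, Subgroup.mem_centralizer_iff]
    intro t ht
    have ht' : g⁻¹ * t * g⁻¹⁻¹ ∈ T₁ := (Subgroup.mem_normalizer_iff.1 (inv_mem hg) t).1 ht
    have hc := Subgroup.mem_centralizer_iff.1 (hZc hz) _ (hT₁S ht')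
    calc t * (g * z * g⁻¹) = g * ((g⁻¹ * t * g⁻¹⁻¹) * z) * g⁻¹ := by group
      _ = g * (z * (g⁻¹ * t * g⁻¹⁻¹)) * g⁻¹ := by rw [hc]
      _ = g * z * g⁻¹ * t := by group
  have hcomm : ∀ a ∈ Subgroup.closure (conjSet (Subgroup.normalizer (T₁ : Set X)) Z),
      ∀ b ∈ Subgroup.closure (conjSet (Subgroup.normalizer (T₁ : Set X)) Z), a * b = b * a :=
    fun a ha b hb => Subgroup.mem_centralizer_iff.1 (hAc hb) a (hAT ha)
  have hpow : ∀ a ∈ Subgroup.closure (conjSet (Subgroup.normalizer (T₁ : Set X)) Z),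
      a ^ p = 1 := by
    intro a ha
    induction ha using Subgroup.closure_induction with
    | mem x hx =>
      obtain ⟨g, hg, z, hz, rfl⟩ := hx
      rw [conj_pow, hZp z hz, mul_one, mul_inv_cancel]
    | one => exact one_pow _
    | mul x y hx hy ihx ihy =>
      have hc : Commute x y := hcomm x hx y hy
      rw [hc.mul_pow, ihx, ihy, one_mul]
    | inv x hx ih => rw [inv_pow, ih, inv_one]
  refine ⟨hAT, ⟨⟨⟨fun a b => Subtype.ext (hcomm a a.2 b b.2)⟩⟩, hpow⟩,
    le_normalizer_of_conj_mem (fun g hg => conjSet_closure_conj hg),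
    le_normalizer_of_conj_mem (fun h hh => conj_closure_mem ?_)⟩
  rintro _ ⟨g, hg, z, hz, rfl⟩
  obtain ⟨n, hn, c, hc, rfl⟩ := hF₁ g hg
  obtain ⟨n', hn', c', hc', e⟩ := hF₂ (h * n) (mul_mem hh (Subgroup.mem_inf.1 hn).2)
  have hcz : c * z * c⁻¹ = z := by
    rw [← Subgroup.mem_centralizer_iff.1 hc z hz, mul_inv_cancel_right]
  have hcz' : c' * z * c'⁻¹ = z := by
    rw [← Subgroup.mem_centralizer_iff.1 hc' z hz, mul_inv_cancel_right]
  apply Subgroup.subset_closure
  refine ⟨n', (Subgroup.mem_inf.1 hn').2, z, hz, ?_⟩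
  calc h * (n * c * z * (n * c)⁻¹) * h⁻¹ = (h * n) * (c * z * c⁻¹) * (h * n)⁻¹ := by group
    _ = (n' * c') * z * (n' * c')⁻¹ := by rw [hcz, e]
    _ = n' * (c' * z * c'⁻¹) * n'⁻¹ := by group
    _ = n' * z * n'⁻¹ := by rw [hcz']

/-- Glauberman's triple factorisation theorem, for the subgroup generated by the
`N(W₁(S))`-conjugates of `Ω₁Z(S)`. -/
theorem triple_factor_main {G : Type u} [Group G] [Finite G] {p : ℕ} [Fact p.Prime]
    (S : Sylow p G) {W₁ W₂ : ∀ (Q : Type u) [Group Q], Subgroup Q}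
    (hW₁ : IsCharPFunctor.{u} p W₁) (hW₂ : IsCharPFunctor.{u} p W₂)
    (hfac1 : ∀ (K R : Subgroup G) [(R.subgroupOf K).Normal],
      Subgroup.centralizer ((pCore p (↥K ⧸ R.subgroupOf K) : Subgroup (↥K ⧸ R.subgroupOf K)) :
        Set (↥K ⧸ R.subgroupOf K)) ≤ pCore p (↥K ⧸ R.subgroupOf K) →
      ∀ T : Sylow p (↥K ⧸ R.subgroupOf K), ∀ x : (↥K ⧸ R.subgroupOf K),
        ∃ a ∈ Subgroup.centralizer ((oz p (T : Subgroup (↥K ⧸ R.subgroupOf K)) :
          Subgroup (↥K ⧸ R.subgroupOf K)) : Set (↥K ⧸ R.subgroupOf K)),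
        ∃ b ∈ Subgroup.normalizer ((inducedFunctor (G := (↥K ⧸ R.subgroupOf K)) W₁
          (T : Subgroup (↥K ⧸ R.subgroupOf K)) : Subgroup (↥K ⧸ R.subgroupOf K)) :
            Set (↥K ⧸ R.subgroupOf K)), x = a * b)
    (hfac2 : ∀ (K R : Subgroup G) [(R.subgroupOf K).Normal],
      Subgroup.centralizer ((pCore p (↥K ⧸ R.subgroupOf K) : Subgroup (↥K ⧸ R.subgroupOf K)) :
        Set (↥K ⧸ R.subgroupOf K)) ≤ pCore p (↥K ⧸ R.subgroupOf K) →
      ∀ T : Sylow p (↥K ⧸ R.subgroupOf K), ∀ x : (↥K ⧸ R.subgroupOf K),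
        ∃ a ∈ Subgroup.centralizer ((oz p (T : Subgroup (↥K ⧸ R.subgroupOf K)) :
          Subgroup (↥K ⧸ R.subgroupOf K)) : Set (↥K ⧸ R.subgroupOf K)),
        ∃ b ∈ Subgroup.normalizer ((inducedFunctor (G := (↥K ⧸ R.subgroupOf K)) W₂
          (T : Subgroup (↥K ⧸ R.subgroupOf K)) : Subgroup (↥K ⧸ R.subgroupOf K)) :
            Set (↥K ⧸ R.subgroupOf K)), x = a * b)
    (hfac3 : ∀ (K R : Subgroup G) [(R.subgroupOf K).Normal],
      Subgroup.centralizer ((pCore p (↥K ⧸ R.subgroupOf K) : Subgroup (↥K ⧸ R.subgroupOf K)) :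
        Set (↥K ⧸ R.subgroupOf K)) ≤ pCore p (↥K ⧸ R.subgroupOf K) →
      ∀ T : Sylow p (↥K ⧸ R.subgroupOf K), ∀ x : (↥K ⧸ R.subgroupOf K),
        ∃ a ∈ Subgroup.normalizer ((inducedFunctor (G := (↥K ⧸ R.subgroupOf K)) W₁
          (T : Subgroup (↥K ⧸ R.subgroupOf K)) : Subgroup (↥K ⧸ R.subgroupOf K)) :
            Set (↥K ⧸ R.subgroupOf K)),
        ∃ b ∈ Subgroup.normalizer ((inducedFunctor (G := (↥K ⧸ R.subgroupOf K)) W₂
          (T : Subgroup (↥K ⧸ R.subgroupOf K)) : Subgroup (↥K ⧸ R.subgroupOf K)) :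
            Set (↥K ⧸ R.subgroupOf K)), x = a * b)
    (hZ : oz p (S : Subgroup G) ≤
      inducedFunctor (G := G) W₁ (S : Subgroup G) ⊓ inducedFunctor (G := G) W₂ (S : Subgroup G))
    (A : Subgroup G)
    (hA : A = Subgroup.closure (conjSet (Subgroup.normalizer
      ((inducedFunctor (G := G) W₁ (S : Subgroup G) : Subgroup G) : Set G)) (oz p (S : Subgroup G)))) :
    A ≤ (S : Subgroup G) ∧ IsElementaryAbelian p A ∧ IsStronglyClosed A (S : Subgroup G) ∧
      ControlsStrongFusion p A := by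
  have hS := sylIn_top S
  have hpS : IsPGroup p (S : Subgroup G) := hS.2.1
  have hcf₁ := isConjugacyFunctor_induced hW₁ G
  have hcf₂ := isConjugacyFunctor_induced hW₂ G
  have hSN₁ := Subgroup.le_normalizer.trans (cf_normalizer_le hcf₁ hpS)
  have hSN₂ := Subgroup.le_normalizer.trans (cf_normalizer_le hcf₂ hpS)
  have hO₁ : OzFac p W₂ W₁ ↥(Subgroup.normalizer
      ((inducedFunctor (G := G) W₁ (S : Subgroup G) : Subgroup G) : Set G)) :=
    ozFac_sections hW₂ hW₁ hfac2 _ ((SubQ.self G).subgroup _)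
  have hO₂ : OzFac p W₁ W₂ ↥(Subgroup.normalizer
      ((inducedFunctor (G := G) W₂ (S : Subgroup G) : Subgroup G) : Set G)) :=
    ozFac_sections hW₁ hW₂ hfac1 _ ((SubQ.self G).subgroup _)
  obtain ⟨hAT, hAe, hAN₁, hAN₂⟩ := triple_core (p := p) (S := (S : Subgroup G))
    (T₁ := inducedFunctor (G := G) W₁ (S : Subgroup G))
    (T₂ := inducedFunctor (G := G) W₂ (S : Subgroup G)) (Z := oz p (S : Subgroup G))
    (cf_le hcf₁ hpS) (hZ.trans inf_le_left) ((oz_le p _).trans inf_le_right)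
    (fun z hz => oz_pow hz)
    (fun g hg => ozFac_subgroup hW₂ hW₁ hO₁ hS hSN₁ le_rfl (hZ.trans inf_le_left) hg)
    (fun g hg => ozFac_subgroup hW₁ hW₂ hO₂ hS hSN₂ le_rfl (hZ.trans inf_le_right) hg)
  rw [← hA] at hAT hAe hAN₁ hAN₂
  have hAS : A ≤ (S : Subgroup G) := hAT.trans (cf_le hcf₁ hpS)
  have hctl : FCtrlAt (indFam {W₁, W₂} G) ⊤ (S : Subgroup G) :=
    (familyControlsStrongFusionIn_iff
      (indFam_isConjugacyFunctor (charPFunctor_pair hW₁ hW₂) G) hS).1
      (famCtl_sections_of_factor hW₁ hW₂ hfac3 G (SubQ.self G))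
  have hkey : ∀ (B : Set G) (g : G), B ⊆ (S : Subgroup G) → lconj g B ⊆ (S : Subgroup G) →
      ∃ c ∈ Subgroup.normalizer (A : Set G), ∀ b ∈ B, c * b * c⁻¹ = g * b * g⁻¹ := by
    intro B g hB hgB
    obtain ⟨c, hc, ec⟩ := hctl B g (Subgroup.mem_top _) hB hgB
    refine ⟨c, hc.mem_of_forall_le (L := Subgroup.normalizer (A : Set G)) ?_, ec⟩
    rintro _ ⟨W, hW, rfl⟩
    rcases hW with rfl | rfl
    · exact hAN₁
    · exact hAN₂
  refine ⟨hAS, hAe, ⟨hAS, ?_⟩, ⟨S, hAS, fun B hB => ⟨hB, fun g hgB => ?_⟩⟩⟩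
  · intro x hx g hgx
    obtain ⟨c, hc, ec⟩ := hkey {x} g (by
      rintro _ rfl
      exact hAS hx) (by
      rintro _ ⟨a, rfl, rfl⟩
      exact hgx)
    rw [← ec x rfl]
    exact (Subgroup.mem_normalizer_iff.1 hc x).1 hx
  · obtain ⟨c, hc, ec⟩ := hkey B g hB hgB
    exact ⟨c, hc, fun a ha => (ec a ha).symm⟩

end assembly

end Cfsg.Agent.Lib.Helper33
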